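import Mathlib
import Cfsg.Agent.Lib.Helper78.Cyc1Defs

set_option autoImplicit false

/-! # Ladder CYC1 (helper78, S4649), rung LOC: `A ⧸ L` has a local endomorphism ring -/

namespace Cfsg.Agent.Lib.Helper36.Cyc1

open Module Cfsg.Agent.Lib.Helper78.Cyc1

variable {F A : Type*} [Field F] [Ring A] [Algebra F A]

/-- KEY: a left ideal containing `1 - e` and some `a` with `a * e ∉ J` is everything. -/
theorem loc_key {n : ℕ} [NeZero n]
    (π : A →ₐ[F] Matrix (Fin n) (Fin n) F) (hπ : Function.Surjective π)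
    (J : Ideal A) [J.IsTwoSided] (hJ : IsNilpotent J) (hker : ∀ a, π a = 0 ↔ a ∈ J)
    (e : A) (he : e * e = e) (hπe : π e = Matrix.single 0 0 1)
    (L : Ideal A) (h1 : 1 - e ∈ L) (a : A) (ha : a ∈ L) (hae : a * e ∉ J) : L = ⊤ := by
  classical
  have hnil : ∀ j ∈ J, IsNilpotent j := by
    intro j hj
    obtain ⟨N, hN⟩ := hJ
    refine ⟨N, ?_⟩
    have := Ideal.pow_mem_pow hj N
    rw [hN] at this
    simpa using this
  have haeL : a * e ∈ L := by
    have : a * e = a - a * (1 - e) := by rw [mul_sub, mul_one]; abel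
    rw [this]
    exact L.sub_mem ha (L.mul_mem_left _ h1)
  set m := π (a * e) with hm
  have hm0 : m ≠ 0 := fun h => hae ((hker _).1 h)
  have hmE : m * Matrix.single 0 0 1 = m := by
    rw [hm, ← hπe, ← map_mul, mul_assoc, he]
  obtain ⟨r, c, hrc⟩ : ∃ r c, m r c ≠ 0 := by
    by_contra hcon
    push Not at hcon
    exact hm0 (by ext r c; simpa using hcon r c)
  have hcol : ∀ r c, c ≠ 0 → m r c = 0 := by
    intro r c hc
    rw [← hmE]
    rw [Matrix.mul_single_apply_of_ne]
    exact hc
  have hc0 : c = 0 := by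
    by_contra hc
    exact hrc (hcol r c hc)
  subst hc0
  obtain ⟨w, hw⟩ := hπ (Matrix.single 0 r (m r 0)⁻¹)
  have hπ1 : π (e * w * (a * e)) = Matrix.single 0 0 1 := by
    rw [map_mul, map_mul, hπe, hw, ← hm]
    ext i k
    by_cases hi : i = 0
    · subst hi
      by_cases hk : k = 0
      · subst hk
        simp [Matrix.single_mul_single_same, Matrix.single_mul_apply_same, hrc]
      · simp [Matrix.single_mul_single_same, Matrix.single_mul_apply_same, hcol r k hk,
          Matrix.single_apply, Ne.symm hk]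
    · rw [Matrix.single_mul_single_same, Matrix.single_mul_apply_of_ne _ _ _ _ _ hi]
      simp [Matrix.single_apply, Ne.symm hi]
  set j := e - e * w * (a * e) with hj
  have hjJ : j ∈ J := by
    rw [← hker, hj, map_sub, hπ1, hπe, sub_self]
  have hje : j * e = j := by
    rw [hj, sub_mul, he, mul_assoc (e * w), mul_assoc a, he]
  obtain ⟨u, hu⟩ := (hnil j hjJ).isUnit_one_sub
  have heL : e ∈ L := by
    have h3 : e * w * (a * e) = (1 - j) * e := by
      rw [sub_mul, one_mul, hje, hj]; abel
    have h4 : e = (↑u⁻¹ : A) * (e * w * (a * e)) := by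
      rw [h3, ← hu, ← mul_assoc, Units.inv_mul, one_mul]
    rw [h4]
    exact L.mul_mem_left _ (L.mul_mem_left _ haeL)
  rw [Ideal.eq_top_iff_one]
  have : (1 : A) = (1 - e) + e := by abel
  rw [this]
  exact L.add_mem h1 heL

theorem local_of [FiniteDimensional F A] {n : ℕ} [NeZero n]
    (π : A →ₐ[F] Matrix (Fin n) (Fin n) F) (hπ : Function.Surjective π)
    (J : Ideal A) [J.IsTwoSided] (hJ : IsNilpotent J) (hker : ∀ a, π a = 0 ↔ a ∈ J)
    (e : A) (he : e * e = e) (hπe : π e = Matrix.single 0 0 1)
    (L : Ideal A) (h1 : 1 - e ∈ L) (h2 : ∀ a ∈ L, a * e ∈ J) : LocEnd A (A ⧸ L) := by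
  classical
  have main : ∀ (g : Module.End A (A ⧸ L)) (a : A), g (Submodule.Quotient.mk 1) =
      Submodule.Quotient.mk a → a * e ∉ J → Function.Bijective g := by
    intro g a hga hae
    have hgr : ∀ r : A, g (Submodule.Quotient.mk r) = Submodule.Quotient.mk (r * a) := by
      intro r
      have : (Submodule.Quotient.mk r : A ⧸ L) = r • Submodule.Quotient.mk (1 : A) := by
        rw [← Submodule.Quotient.mk_smul, smul_eq_mul, mul_one]
      rw [this, map_smul, hga, ← Submodule.Quotient.mk_smul, smul_eq_mul]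
    have htop : L ⊔ Ideal.span {a} = ⊤ :=
      loc_key π hπ J hJ hker e he hπe _ (Submodule.mem_sup_left h1) a
        (Submodule.mem_sup_right (Ideal.subset_span rfl)) hae
    have hsurj : Function.Surjective g := by
      intro y
      obtain ⟨r, rfl⟩ := Submodule.Quotient.mk_surjective L y
      have hr : r ∈ L ⊔ Ideal.span {a} := htop ▸ Submodule.mem_top
      obtain ⟨l, hl, s, hs, rfl⟩ := Submodule.mem_sup.1 hr
      obtain ⟨t, rfl⟩ := Ideal.mem_span_singleton'.1 hs
      refine ⟨Submodule.Quotient.mk t, ?_⟩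
      rw [hgr, Submodule.Quotient.eq]
      simpa using L.neg_mem hl
    have hinj : Function.Injective (g.restrictScalars F) :=
      LinearMap.injective_iff_surjective.2 hsurj
    exact ⟨hinj, hsurj⟩
  intro f
  obtain ⟨a, ha⟩ := Submodule.Quotient.mk_surjective L (f (Submodule.Quotient.mk 1))
  by_cases hae : a * e ∈ J
  · right
    refine main (1 - f) (1 - a) ?_ ?_
    · rw [LinearMap.sub_apply, ← ha, Submodule.Quotient.mk_sub]; rfl
    · intro hcon
      have h3 : e ∈ J := by
        have : e = (1 - a) * e + a * e := by rw [sub_mul, one_mul]; abel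
        rw [this]
        exact J.add_mem hcon hae
      have h4 := (hker e).2 h3
      rw [hπe] at h4
      have := congrFun (congrFun h4 0) 0
      simp at this
  · left
    exact main f a ha.symm hae

end Cfsg.Agent.Lib.Helper36.Cyc1
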