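import Mathlib
import Cfsg.Agent.Lib.Helper78.Cyc1Defs

set_option autoImplicit false

/-! # Ladder CYC1 (helper78, S4649), rung NISO: `A ⧸ L_μ` and `A ⧸ L_ν` are not isomorphic -/

namespace Cfsg.Agent.Lib.Helper36.Cyc1

open Module Cfsg.Agent.Lib.Helper78.Cyc1

variable {F A : Type*} [Field F] [Ring A] [Algebra F A]

theorem niso_J0_mul_le (J : Ideal A) [J.IsTwoSided] (e : A) :
    J0 F J e * J0 F J e ≤ J0 F J e := by
  rw [Submodule.mul_le]
  rintro a ⟨ha, ha1, ha2⟩ b ⟨hb, hb1, hb2⟩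
  exact ⟨J.mul_mem_left _ hb, by rw [← mul_assoc, ha1], by rw [mul_assoc, hb2]⟩

theorem niso_Kmu_le (J : Ideal A) [J.IsTwoSided] (e x y : A)
    (hx : x ∈ J0 F J e) (hy : y ∈ J0 F J e) (μ : F) : Kmu J e x y μ ≤ J0 F J e := by
  refine sup_le (niso_J0_mul_le J e) ?_
  rw [Submodule.span_singleton_le_iff_mem]
  exact (J0 F J e).sub_mem hx ((J0 F J e).smul_mem _ hy)

/-- `e r e` is a scalar multiple of `e` modulo `J0`. -/
theorem niso_corner {n : ℕ} [NeZero n]
    (π : A →ₐ[F] Matrix (Fin n) (Fin n) F)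
    (J : Ideal A) (hker : ∀ a, π a = 0 ↔ a ∈ J)
    (e : A) (he : e * e = e) (hπe : π e = Matrix.single 0 0 1) (r : A) :
    e * r * e - (π r 0 0) • e ∈ J0 F J e := by
  classical
  refine ⟨?_, ?_, ?_⟩
  · rw [← hker, map_sub, map_mul, map_mul, map_smul, hπe]
    ext i k
    by_cases hi : i = 0
    · subst hi
      by_cases hk : k = 0
      · subst hk
        simp [Matrix.mul_assoc, Matrix.single_mul_apply_same, Matrix.mul_single_apply_same]
      · simp [Ne.symm hk]
    · simp [Matrix.mul_assoc, Matrix.single_mul_apply_of_ne _ _ _ _ _ hi, Ne.symm hi]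
  · rw [mul_sub, mul_smul_comm, he, ← mul_assoc, ← mul_assoc, he]
  · rw [sub_mul, smul_mul_assoc, he, mul_assoc, he]

theorem niso_corner_mul {n : ℕ} [NeZero n]
    (π : A →ₐ[F] Matrix (Fin n) (Fin n) F)
    (J : Ideal A) [J.IsTwoSided] (hker : ∀ a, π a = 0 ↔ a ∈ J)
    (e : A) (he : e * e = e) (hπe : π e = Matrix.single 0 0 1) (x y : A)
    (hx : x ∈ J0 F J e) (hy : y ∈ J0 F J e) (μ : F) (r k : A) (hk : k ∈ Kmu J e x y μ) :
    e * r * e * k ∈ Kmu J e x y μ ∧ k * (e * r * e) ∈ Kmu J e x y μ := by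
  have hk0 : k ∈ J0 F J e := niso_Kmu_le J e x y hx hy μ hk
  have hc := niso_corner π J hker e he hπe r
  set j0 := e * r * e - (π r 0 0) • e with hj0
  have h1 : e * r * e = (π r 0 0) • e + j0 := by rw [hj0]; abel
  constructor
  · rw [h1, add_mul, smul_mul_assoc, hk0.2.1]
    exact (Kmu J e x y μ).add_mem ((Kmu J e x y μ).smul_mem _ hk)
      (Submodule.mem_sup_left (Submodule.mul_mem_mul hc hk0))
  · rw [h1, mul_add, mul_smul_comm, hk0.2.2]
    exact (Kmu J e x y μ).add_mem ((Kmu J e x y μ).smul_mem _ hk)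
      (Submodule.mem_sup_left (Submodule.mul_mem_mul hk0 hc))

theorem not_iso {n : ℕ} [NeZero n]
    (π : A →ₐ[F] Matrix (Fin n) (Fin n) F)
    (J : Ideal A) [J.IsTwoSided] (hker : ∀ a, π a = 0 ↔ a ∈ J)
    (e : A) (he : e * e = e) (hπe : π e = Matrix.single 0 0 1) (x y : A)
    (hx : x ∈ J0 F J e) (hy : y ∈ J0 F J e)
    (hind : ∀ α β : F, α • x + β • y ∈ J0 F J e * J0 F J e → α = 0 ∧ β = 0)
    (μ ν : F) (hμν : μ ≠ ν) : IsEmpty ((A ⧸ Lmu J e x y μ) ≃ₗ[A] (A ⧸ Lmu J e x y ν)) := by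
  classical
  refine ⟨fun φ => ?_⟩
  -- (1)
  have step1 : ∀ k ∈ Kmu J e x y μ, ∀ r : A, k * r ∈ Lmu J e x y μ := by
    intro k hk r
    have hk0 : k ∈ J0 F J e := niso_Kmu_le J e x y hx hy μ hk
    have h1 : k * r = k * (e * r * e) + (k * r) * (1 - e) := by
      have : k * (e * r * e) = k * r * e := by
        rw [← mul_assoc, ← mul_assoc, hk0.2.2]
      rw [this, mul_sub, mul_one]; abel
    rw [h1]
    refine (Lmu J e x y μ).add_mem (Ideal.subset_span (Set.mem_insert_of_mem _ ?_))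
      ((Lmu J e x y μ).mul_mem_left _ (Ideal.subset_span (Set.mem_insert _ _)))
    exact (niso_corner_mul π J hker e he hπe x y hx hy μ r k hk).2
  -- (2)
  have step2 : ∀ a ∈ Lmu J e x y ν, ∀ s : A, e * s * a * e ∈ Kmu J e x y ν := by
    intro a ha
    induction ha using Submodule.span_induction with
    | mem a ha =>
      intro s
      rcases ha with rfl | ha
      · have : e * s * (1 - e) * e = 0 := by
          rw [mul_assoc, sub_mul, one_mul, he, sub_self, mul_zero]
        rw [this]; exact Submodule.zero_mem _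
      · have hk0 : a ∈ J0 F J e := niso_Kmu_le J e x y hx hy ν ha
        have : e * s * a * e = e * s * e * a := by
          rw [mul_assoc (e * s) a e, hk0.2.2, mul_assoc (e * s) e a, hk0.2.1]
        rw [this]
        exact (niso_corner_mul π J hker e he hπe x y hx hy ν s a ha).1
    | zero => intro s; simp
    | add a b _ _ iha ihb =>
      intro s
      rw [mul_add, add_mul]
      exact Submodule.add_mem _ (iha s) (ihb s)
    | smul r a _ iha =>
      intro s
      have : e * s * (r • a) * e = e * (s * r) * a * e := by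
        rw [smul_eq_mul]; simp only [mul_assoc]
      rw [this]
      exact iha (s * r)
  -- (3)
  set k := x - μ • y with hk
  have hkK : k ∈ Kmu J e x y μ := Submodule.mem_sup_right (Submodule.mem_span_singleton_self _)
  have hk0 : k ∈ J0 F J e := niso_Kmu_le J e x y hx hy μ hkK
  have hann : ∀ z : A ⧸ Lmu J e x y μ, k • z = 0 := by
    intro z
    obtain ⟨r, rfl⟩ := Submodule.Quotient.mk_surjective _ z
    rw [← Submodule.Quotient.mk_smul, smul_eq_mul, Submodule.Quotient.mk_eq_zero]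
    exact step1 k hkK r
  have hkL : k ∈ Lmu J e x y ν := by
    have h1 : k • (Submodule.Quotient.mk (1 : A) : A ⧸ Lmu J e x y ν) = 0 := by
      have := hann (φ.symm (Submodule.Quotient.mk (1 : A)))
      have h2 := congrArg φ this
      rwa [map_smul, LinearEquiv.apply_symm_apply, map_zero] at h2
    rwa [← Submodule.Quotient.mk_smul, smul_eq_mul, mul_one, Submodule.Quotient.mk_eq_zero] at h1
  have hkK' : k ∈ Kmu J e x y ν := by
    have := step2 k hkL 1
    rwa [mul_one, hk0.2.1, hk0.2.2] at this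
  have hk' : x - ν • y ∈ Kmu J e x y ν :=
    Submodule.mem_sup_right (Submodule.mem_span_singleton_self _)
  have hyK : y ∈ Kmu J e x y ν := by
    have h1 : (ν - μ) • y ∈ Kmu J e x y ν := by
      have : (ν - μ) • y = k - (x - ν • y) := by rw [hk, sub_smul]; abel
      rw [this]
      exact Submodule.sub_mem _ hkK' hk'
    have h2 : ν - μ ≠ 0 := sub_ne_zero.2 (Ne.symm hμν)
    have := (Kmu J e x y ν).smul_mem (ν - μ)⁻¹ h1
    rwa [smul_smul, inv_mul_cancel₀ h2, one_smul] at this
  obtain ⟨s, hs, t, ht, hst⟩ := Submodule.mem_sup.1 hyK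
  obtain ⟨α, rfl⟩ := Submodule.mem_span_singleton.1 ht
  have h5 : (-α) • x + (1 + α * ν) • y ∈ J0 F J e * J0 F J e := by
    have : (-α) • x + (1 + α * ν) • y = s := by
      have h6 : s = y - α • (x - ν • y) := eq_sub_of_add_eq hst
      rw [h6, smul_sub, smul_smul, add_smul, one_smul, neg_smul]; abel
    rw [this]; exact hs
  obtain ⟨h7, h8⟩ := hind _ _ h5
  have h9 : α = 0 := by simpa using h7
  rw [h9] at h8
  simp at h8

end Cfsg.Agent.Lib.Helper36.Cyc1
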