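import Mathlib
import Cfsg.Agent.Lib.Helper78.Cyc1Defs

set_option autoImplicit false

/-! # Ladder CYC1 (helper78, S4649), rung EXCH: the exchange lemma -/

namespace Cfsg.Agent.Lib.Helper36.Cyc1

open Module Cfsg.Agent.Lib.Helper78.Cyc1

universe u v w

/-- one exchange step: a summand `B` with local endomorphism ring, not isomorphic to the summand `A`
(also local), is a summand of the complement `ker pa`. -/
theorem exch_step {R : Type*} [Ring R] {A B Y : Type*} [AddCommGroup A] [AddCommGroup B]
    [AddCommGroup Y] [Module R A] [Module R B] [Module R Y]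
    (hA : LocEnd R A) (hB : LocEnd R B) (hne : IsEmpty (B ≃ₗ[R] A))
    (ja : A →ₗ[R] Y) (pa : Y →ₗ[R] A) (ha : pa ∘ₗ ja = LinearMap.id)
    (jb : B →ₗ[R] Y) (pb : Y →ₗ[R] B) (hb : pb ∘ₗ jb = LinearMap.id) :
    ∃ (j : B →ₗ[R] LinearMap.ker pa) (p : LinearMap.ker pa →ₗ[R] B), p ∘ₗ j = LinearMap.id := by
  have ha' : ∀ x, pa (ja x) = x := fun x => by
    have := congrArg (fun g : A →ₗ[R] A => g x) ha
    simpa using this
  have hb' : ∀ x, pb (jb x) = x := fun x => by
    have := congrArg (fun g : B →ₗ[R] B => g x) hb
    simpa using this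
  set f : Module.End R B := pb ∘ₗ ja ∘ₗ pa ∘ₗ jb with hf
  have hfx : ∀ b, f b = pb (ja (pa (jb b))) := fun b => rfl
  have h1f : ∀ b, (1 - f : Module.End R B) b = b - f b := fun b => rfl
  have key : Function.Bijective (1 - f : Module.End R B) := by
    rcases hB f with hbij | hbij
    · -- `f` bijective
      let fe : B ≃ₗ[R] B := LinearEquiv.ofBijective f hbij
      have hfe : ∀ b, fe b = f b := fun b => rfl
      have hfes : ∀ b, f (fe.symm b) = b := fun b => by rw [← hfe]; simp
      have hfes' : ∀ b, fe.symm (f b) = b := fun b => by rw [← hfe]; simp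
      set E : Module.End R A := pa ∘ₗ jb ∘ₗ (fe.symm : B →ₗ[R] B) ∘ₗ pb ∘ₗ ja with hE
      have hEx : ∀ x, E x = pa (jb (fe.symm (pb (ja x)))) := fun x => rfl
      have hEE : ∀ x, E (E x) = E x := by
        intro x
        rw [hEx (E x), hEx x, ← hfx, hfes']
      have h1E : ∀ x, (1 - E : Module.End R A) x = x - E x := fun x => rfl
      rcases hA E with hEb | hEb
      · exfalso
        have hid : ∀ x, E x = x := fun x => hEb.1 (hEE x)
        have hαb : Function.Bijective (pa ∘ₗ jb : B →ₗ[R] A) := by
          constructor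
          · intro b b' hbb
            apply hbij.1
            rw [hfx, hfx]
            have : pa (jb b) = pa (jb b') := hbb
            rw [this]
          · intro x
            exact ⟨fe.symm (pb (ja x)), (hEx x).symm.trans (hid x)⟩
        exact hne.false (LinearEquiv.ofBijective _ hαb)
      · have hE0 : ∀ x, E x = 0 := by
          intro x
          apply hEb.1
          rw [h1E, hEE, sub_self, map_zero]
        have hf0 : ∀ b, f b = 0 := by
          intro b
          have h1 : f b = pb (ja (E (pa (jb b)))) := by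
            rw [hEx, ← hfx, ← hfx, hfes' b]
          rw [h1, hE0]; simp
        have hb0 : ∀ b : B, b = 0 := by
          intro b
          apply hbij.1
          rw [hf0, hf0]
        constructor
        · intro b b' _
          rw [hb0 b, hb0 b']
        · intro b
          exact ⟨0, (hb0 b).symm ▸ map_zero _⟩
    · exact hbij
  let h : B ≃ₗ[R] B := LinearEquiv.ofBijective (1 - f : Module.End R B) key
  have hh : ∀ b, h b = b - f b := fun b => rfl
  refine ⟨LinearMap.codRestrict (LinearMap.ker pa) (jb - ja ∘ₗ pa ∘ₗ jb) ?_,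
    (h.symm : B →ₗ[R] B) ∘ₗ pb ∘ₗ (LinearMap.ker pa).subtype, ?_⟩
  · intro b
    rw [LinearMap.mem_ker]
    simp [ha']
  · ext b
    simp only [LinearMap.comp_apply, LinearMap.id_apply, Submodule.subtype_apply,
      LinearMap.codRestrict_apply, LinearMap.sub_apply, LinearEquiv.coe_coe, map_sub, hb']
    rw [← hfx, ← map_sub, ← hh]
    simp

theorem exch {F : Type*} {R : Type*} [Field F] [Ring R] [Algebra F R] {κ : Type*}
    (M : κ → Type v) [∀ i, AddCommGroup (M i)] [∀ i, Module R (M i)] [∀ i, Module F (M i)]
    [∀ i, IsScalarTower F R (M i)] [∀ i, FiniteDimensional F (M i)]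
    (hloc : ∀ i, LocEnd R (M i))
    (hne : ∀ i j, i ≠ j → IsEmpty (M i ≃ₗ[R] M j)) (s : Finset κ) :
    ∀ (Y : Type w) [AddCommGroup Y] [Module R Y] [Module F Y] [IsScalarTower F R Y]
      [FiniteDimensional F Y],
      (∀ i ∈ s, ∃ (a : M i →ₗ[R] Y) (b : Y →ₗ[R] M i), b ∘ₗ a = LinearMap.id) →
      ∑ i ∈ s, finrank F (M i) ≤ finrank F Y := by
  classical
  induction s using Finset.induction_on with
  | empty =>
    intro Y _ _ _ _ _ _
    simp
  | insert a s has ih =>
    intro Y _ _ _ _ _ hY
    obtain ⟨ja, pa, hpa⟩ := hY a (Finset.mem_insert_self a s)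
    have hsurj : Function.Surjective pa := by
      intro x
      refine ⟨ja x, ?_⟩
      have := congrArg (fun g : M a →ₗ[R] M a => g x) hpa
      simpa using this
    have : FiniteDimensional F (LinearMap.ker pa) :=
      Module.Finite.of_injective ((LinearMap.ker pa).subtype.restrictScalars F)
        (Subtype.val_injective)
    have hrank : finrank F (M a) + finrank F (LinearMap.ker pa) = finrank F Y := by
      have h1 := LinearMap.finrank_range_add_finrank_ker (pa.restrictScalars F)
      have h2 : LinearMap.range (pa.restrictScalars F) = ⊤ := by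
        rw [LinearMap.range_eq_top]; exact hsurj
      rw [h2, finrank_top] at h1
      exact h1
    have hih := ih (LinearMap.ker pa) (by
      intro i hi
      obtain ⟨ji, pi, hpi⟩ := hY i (Finset.mem_insert_of_mem hi)
      have hia : i ≠ a := fun h => has (h ▸ hi)
      exact exch_step (hloc a) (hloc i) (hne i a hia) ja pa hpa ji pi hpi)
    rw [Finset.sum_insert has, ← hrank]
    omega

end Cfsg.Agent.Lib.Helper36.Cyc1
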