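import Cfsg.Agent.Lib.Helper36.CentralAut

set_option autoImplicit false

namespace Cfsg.Agent.Lib.Helper36

open Subgroup

/-- Relative form: if `E ≤ G` has `E' = Z(E)` of prime order and `g` satisfies `[g, e] ∈ Z(E)`
for all `e ∈ E`, then `g ∈ E C_G(E)`. -/
theorem mem_sup_centralizer_of_commutator_central {G : Type*} [Group G] [Finite G] {p : ℕ}
    [hp : Fact p.Prime] (E : Subgroup G)
    (hcomm : commutator ↥E = center ↥E) (hcard : Nat.card (center ↥E) = p) (g : G)
    (hg : ∀ e ∈ E, g * e * g⁻¹ * e⁻¹ ∈ E ⊓ centralizer (E : Set G)) :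
    g ∈ E ⊔ centralizer (E : Set G) := by
  have hgE : ∀ e ∈ E, g * e * g⁻¹ ∈ E := by
    intro e he
    have := E.mul_mem (hg e he).1 he
    simpa [mul_assoc] using this
  let φ : ↥E →* ↥E := MonoidHom.mk' (fun e => ⟨g * e * g⁻¹, hgE e e.2⟩) (by
    intro x y
    apply Subtype.ext
    change g * (x * y) * g⁻¹ = (g * x * g⁻¹) * (g * y * g⁻¹)
    group)
  have hφ : ∀ x : ↥E, φ x * x⁻¹ ∈ center ↥E := by
    intro x
    rw [mem_center_iff]
    intro y
    apply Subtype.ext
    have h1 := (mem_centralizer_iff.mp (hg x x.2).2) y y.2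
    exact h1
  obtain ⟨u, hu⟩ := exists_conj_of_central_endo hcomm hcard φ hφ
  have hu' : ∀ e ∈ E, g * e * g⁻¹ = u * e * (u : G)⁻¹ := by
    intro e he
    exact congrArg Subtype.val (hu ⟨e, he⟩)
  have h2 : (u : G)⁻¹ * g ∈ centralizer (E : Set G) := by
    rw [mem_centralizer_iff]
    intro e he
    have := hu' e he
    calc e * ((u : G)⁻¹ * g) = (u : G)⁻¹ * (u * e * (u : G)⁻¹) * g := by group
      _ = (u : G)⁻¹ * (g * e * g⁻¹) * g := by rw [this]
      _ = (u : G)⁻¹ * g * e := by group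
  have h3 : g = u * ((u : G)⁻¹ * g) := by group
  rw [h3]
  exact mul_mem_sup u.2 h2

end Cfsg.Agent.Lib.Helper36
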