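import Mathlib.GroupTheory.Sylow
import Mathlib.GroupTheory.Index
import Mathlib.GroupTheory.PGroup

set_option autoImplicit false

namespace Cfsg.Agent.Lib.Helper36

open Subgroup

variable {X : Type*} [Group X]

/-- For an involution `v` normalizing the elementary abelian 2-group `F`: `|F| ≤ |C_F(v)|²`. -/
theorem card_le_sq_centralizer [Finite X] (F : Subgroup X) (hFc : ∀ a ∈ F, ∀ b ∈ F, a * b = b * a)
    (hF2 : ∀ a ∈ F, a * a = 1) (v : X) (hv : v * v = 1) (hvF : ∀ f ∈ F, v * f * v⁻¹ ∈ F) :
    Nat.card F ≤ Nat.card ↥(F ⊓ centralizer {v}) ^ 2 := by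
  have hvinv : v⁻¹ = v := inv_eq_of_mul_eq_one_left hv
  let τ : ↥F →* ↥F := MonoidHom.mk' (fun f => ⟨f * (v * f * v⁻¹), F.mul_mem f.2 (hvF f f.2)⟩) (by
    intro a b
    apply Subtype.ext
    change (a : X) * b * (v * (a * b) * v⁻¹) = a * (v * a * v⁻¹) * (b * (v * b * v⁻¹))
    have h1 : (b : X) * (v * a * v⁻¹) = (v * a * v⁻¹) * b := hFc _ b.2 _ (hvF a a.2)
    calc (a : X) * b * (v * (a * b) * v⁻¹) = a * (b * (v * a * v⁻¹)) * (v * b * v⁻¹) := by group
      _ = a * ((v * a * v⁻¹) * b) * (v * b * v⁻¹) := by rw [h1]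
      _ = a * (v * a * v⁻¹) * (b * (v * b * v⁻¹)) := by group)
  have hτ : ∀ f : ↥F, ((τ f : ↥F) : X) = f * (v * f * v⁻¹) := fun f => rfl
  set C := F ⊓ centralizer {v} with hC
  have hCF : C ≤ F := inf_le_left
  have hker : τ.ker ≤ C.subgroupOf F := by
    intro f hf
    rw [mem_subgroupOf, hC, mem_inf, mem_centralizer_singleton_iff]
    refine ⟨f.2, ?_⟩
    have h1 : (f : X) * (v * f * v⁻¹) = 1 := by
      rw [← hτ, MonoidHom.mem_ker.mp hf]; rfl
    have h2 : v * f * v⁻¹ = (f : X) := by
      calc v * f * v⁻¹ = (f : X) * f * (v * f * v⁻¹) := by rw [hF2 f f.2, one_mul]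
        _ = f * (f * (v * f * v⁻¹)) := by group
        _ = f := by rw [h1, mul_one]
    calc (f : X) * v = (v * f * v⁻¹) * v := by rw [h2]
      _ = v * f := by group
  have hrange : τ.range ≤ C.subgroupOf F := by
    rintro _ ⟨f, rfl⟩
    rw [mem_subgroupOf, hC, mem_inf, mem_centralizer_singleton_iff, hτ]
    refine ⟨F.mul_mem f.2 (hvF f f.2), ?_⟩
    have h1 : (f : X) * (v * f * v⁻¹) = (v * f * v⁻¹) * f := hFc _ f.2 _ (hvF f f.2)
    calc (f : X) * (v * f * v⁻¹) * v = (v * f * v⁻¹) * f * v := by rw [h1]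
      _ = v * (f * (v⁻¹ * f * v)) := by group
      _ = v * (f * (v * f * v⁻¹)) := by rw [hvinv]
  have hcard : Nat.card (C.subgroupOf F) = Nat.card C :=
    Nat.card_congr (subgroupOfEquivOfLe hCF).toEquiv
  have h1 := τ.ker.card_mul_index
  rw [index_ker] at h1
  rw [← h1, pow_two, ← hcard]
  exact Nat.mul_le_mul (card_le_of_le hker) (card_le_of_le hrange)

/-- adjoining a commuting involution `e` to the subgroup `U` -/
def adj (U : Subgroup X) (e : X) (he : e * e = 1) (hc : ∀ u ∈ U, e * u = u * e) : Subgroup X where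
  carrier := {x | x ∈ U ∨ x * e ∈ U}
  one_mem' := Or.inl U.one_mem
  mul_mem' := by
    rintro x y (hx | hx) (hy | hy)
    · exact Or.inl (U.mul_mem hx hy)
    · right
      rw [mul_assoc]
      exact U.mul_mem hx hy
    · right
      have : x * y * e = (x * e) * y := by rw [mul_assoc, ← hc y hy, mul_assoc]
      rw [this]
      exact U.mul_mem hx hy
    · left
      have h1 := hc _ hy
      have : x * y = (x * e) * (y * e) := by
        calc x * y = x * ((y * e) * e) := by rw [mul_assoc y, he, mul_one]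
          _ = x * (e * (y * e)) := by rw [h1]
          _ = (x * e) * (y * e) := by group
      rw [this]
      exact U.mul_mem hx hy
  inv_mem' := by
    rintro x (hx | hx)
    · exact Or.inl (U.inv_mem hx)
    · right
      have h1 := hc _ (U.inv_mem hx)
      have heinv : e⁻¹ = e := inv_eq_of_mul_eq_one_left he
      have : x⁻¹ * e = (x * e)⁻¹ := by
        calc x⁻¹ * e = e * (e⁻¹ * x⁻¹) * e := by rw [heinv]; rw [← mul_assoc e, he, one_mul]
          _ = e * (x * e)⁻¹ * e := by rw [mul_inv_rev]
          _ = (x * e)⁻¹ * e * e := by rw [h1]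
          _ = (x * e)⁻¹ := by rw [mul_assoc, he, mul_one]
      rw [this]
      exact U.inv_mem hx

theorem mem_adj {U : Subgroup X} {e : X} {he : e * e = 1} {hc : ∀ u ∈ U, e * u = u * e} {x : X} :
    x ∈ adj U e he hc ↔ x ∈ U ∨ x * e ∈ U := Iff.rfl

theorem le_adj (U : Subgroup X) (e : X) (he : e * e = 1) (hc : ∀ u ∈ U, e * u = u * e) :
    U ≤ adj U e he hc := fun _ hx => Or.inl hx

theorem self_mem_adj (U : Subgroup X) (e : X) (he : e * e = 1) (hc : ∀ u ∈ U, e * u = u * e) :
    e ∈ adj U e he hc := Or.inr (by rw [he]; exact U.one_mem)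

theorem adj_le {U K : Subgroup X} {e : X} {he : e * e = 1} {hc : ∀ u ∈ U, e * u = u * e}
    (hU : U ≤ K) (heK : e ∈ K) : adj U e he hc ≤ K := by
  rintro x (hx | hx)
  · exact hU hx
  · have := K.mul_mem (hU hx) heK
    rwa [mul_assoc, he, mul_one] at this

theorem card_adj [Finite X] (U : Subgroup X) (e : X) (he : e * e = 1)
    (hc : ∀ u ∈ U, e * u = u * e) (heU : e ∉ U) :
    Nat.card (adj U e he hc) = 2 * Nat.card U := by
  have hset : ((adj U e he hc : Subgroup X) : Set X) = (U : Set X) ∪ (fun u => u * e) '' (U : Set X) := by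
    ext x
    constructor
    · rintro (hx | hx)
      · exact Or.inl hx
      · exact Or.inr ⟨x * e, hx, by show x * e * e = x; rw [mul_assoc, he, mul_one]⟩
    · rintro (hx | ⟨u, hu, rfl⟩)
      · exact Or.inl hx
      · right
        change u * e * e ∈ U
        rw [mul_assoc, he, mul_one]; exact hu
  have hdisj : Disjoint (U : Set X) ((fun u => u * e) '' (U : Set X)) := by
    rw [Set.disjoint_left]
    rintro _ hx ⟨u, hu, rfl⟩
    apply heU
    have := U.mul_mem (U.inv_mem hu) hx
    simpa using this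
  have h1 : Nat.card (adj U e he hc) = ((adj U e he hc : Subgroup X) : Set X).ncard :=
    Nat.card_coe_set_eq _
  have h2 : Nat.card U = (U : Set X).ncard := Nat.card_coe_set_eq _
  rw [h1, hset, Set.ncard_union_eq hdisj (Set.toFinite _) (Set.toFinite _),
    Set.ncard_image_of_injective _ (mul_left_injective e), h2, two_mul]

theorem e_comm_adj {U : Subgroup X} {e : X} {he : e * e = 1} {hc : ∀ u ∈ U, e * u = u * e} :
    ∀ a ∈ adj U e he hc, e * a = a * e := by
  rintro a (ha | ha)
  · exact hc a ha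
  · have h1 := hc _ ha
    calc e * a = e * (a * e) * e := by rw [mul_assoc, mul_assoc a, he, mul_one]
      _ = (a * e) * e * e := by rw [h1]
      _ = a * e := by rw [mul_assoc (a * e), he, mul_one]

theorem adj_comm {U : Subgroup X} {e : X} {he : e * e = 1} {hc : ∀ u ∈ U, e * u = u * e}
    (hU : ∀ a ∈ U, ∀ b ∈ U, a * b = b * a) :
    ∀ a ∈ adj U e he hc, ∀ b ∈ adj U e he hc, a * b = b * a := by
  intro a ha b hb
  have hea := e_comm_adj a ha
  have heb := e_comm_adj b hb
  rcases ha with ha | ha <;> rcases hb with hb | hb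
  · exact hU a ha b hb
  · have h1 := hU a ha _ hb
    apply mul_right_cancel (b := e)
    calc a * b * e = a * (b * e) := by group
      _ = (b * e) * a := h1
      _ = b * (e * a) := by group
      _ = b * (a * e) := by rw [hea]
      _ = b * a * e := by group
  · have h1 := hU _ ha b hb
    apply mul_right_cancel (b := e)
    calc a * b * e = a * (b * e) := by group
      _ = a * (e * b) := by rw [heb]
      _ = (a * e) * b := by group
      _ = b * (a * e) := h1
      _ = b * a * e := by group
  · have h1 := hU _ ha _ hb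
    apply mul_right_cancel (b := e * e)
    calc a * b * (e * e) = a * (b * e) * e := by group
      _ = a * (e * b) * e := by rw [heb]
      _ = (a * e) * (b * e) := by group
      _ = (b * e) * (a * e) := h1
      _ = b * (e * a) * e := by group
      _ = b * (a * e) * e := by rw [hea]
      _ = b * a * (e * e) := by group

theorem adj_sq {U : Subgroup X} {e : X} {he : e * e = 1} {hc : ∀ u ∈ U, e * u = u * e}
    (hU : ∀ a ∈ U, a * a = 1) : ∀ a ∈ adj U e he hc, a * a = 1 := by
  rintro a (ha | ha)
  · exact hU a ha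
  · have h1 := hU _ ha
    have h2 := hc _ ha
    calc a * a = a * ((a * e) * e) := by rw [mul_assoc a e, he, mul_one]
      _ = a * (e * (a * e)) := by rw [h2]
      _ = (a * e) * (a * e) := by group
      _ = 1 := h1

end Cfsg.Agent.Lib.Helper36
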