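import Cfsg.Agent.Lib.Helper36.InvClosed
import Mathlib.Algebra.Field.Shrink
import Mathlib.Algebra.Ring.Shrink
import Mathlib.Data.Countable.Small
import Mathlib.Algebra.Field.IsField
import Mathlib.SetTheory.Cardinal.Finite

set_option autoImplicit false

namespace Cfsg.Agent.Lib.Helper36

/-- Hua's identity for a pair of additive subgroups exchanged by inversion. -/
theorem pair_hua {E : Type*} [Ring E] (K₁ K₂ : AddSubgroup E) (h1 : (1 : E) ∈ K₁) (h1' : (1 : E) ∈ K₂)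
    (h12 : ∀ k ∈ K₁, k ≠ 0 → ∃ k' ∈ K₂, k * k' = 1 ∧ k' * k = 1)
    (h21 : ∀ k ∈ K₂, k ≠ 0 → ∃ k' ∈ K₁, k * k' = 1 ∧ k' * k = 1) : K₂ ≤ K₁ := by
  intro b hb
  by_cases hb0 : b = 0
  · rw [hb0]; exact K₁.zero_mem
  obtain ⟨b', hb'K, hbb', hb'b⟩ := h21 b hb hb0
  by_cases hc0 : b' - 1 = 0
  · have hb1 : b' = 1 := sub_eq_zero.mp hc0
    rw [hb1, mul_one] at hbb'
    rw [hbb']; exact h1
  obtain ⟨c', hc'K, hcc', hc'c⟩ := h12 (b' - 1) (K₁.sub_mem hb'K h1) hc0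
  have hs : (1 + c') * ((b' - 1) * b) = 1 := by
    have e1 : (1 + c') * (b' - 1) = b' := by
      rw [add_mul, hc'c, one_mul]; abel
    rw [← mul_assoc, e1, hb'b]
  have hs0 : 1 + c' ≠ 0 := by
    intro h0
    rw [h0, zero_mul] at hs
    apply hb0
    calc b = b * 1 := (mul_one b).symm
      _ = b * 0 := by rw [hs]
      _ = 0 := mul_zero b
  obtain ⟨t, htK, hst, hts⟩ := h21 (1 + c') (K₂.add_mem h1' hc'K) hs0
  have ht : t = (b' - 1) * b := by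
    calc t = t * ((1 + c') * ((b' - 1) * b)) := by rw [hs, mul_one]
      _ = (t * (1 + c')) * ((b' - 1) * b) := (mul_assoc _ _ _).symm
      _ = (b' - 1) * b := by rw [hts, one_mul]
  have : b = 1 - t := by
    rw [ht, sub_mul, hb'b, one_mul]; abel
  rw [this]
  exact K₁.sub_mem h1 htK

/-- **Coordinatisation.**  Two finite elementary abelian 2-groups `𝔸`, `𝔹` with additive groups of
homomorphisms `Φ ⊆ Hom(𝔹, 𝔸)`, `Ψ ⊆ Hom(𝔸, 𝔹)` exchanged by inversion, `Φ` being transitive, are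
one-dimensional over a finite field `F` with `Φ` and `Ψ` the scalar multiplications. -/
theorem exists_field_coord {𝔸 𝔹 : Type*} [AddCommGroup 𝔸] [AddCommGroup 𝔹] [Finite 𝔸]
    [Nontrivial 𝔸] [Nontrivial 𝔹] (h2 : ∀ a : 𝔸, a + a = 0)
    (Φ : AddSubgroup (𝔹 →+ 𝔸)) (Ψ : AddSubgroup (𝔸 →+ 𝔹))
    (hΦ : ∀ φ ∈ Φ, φ ≠ 0 → ∃ ψ ∈ Ψ, (∀ a, φ (ψ a) = a) ∧ (∀ b, ψ (φ b) = b))
    (hΨ : ∀ ψ ∈ Ψ, ψ ≠ 0 → ∃ φ ∈ Φ, (∀ a, φ (ψ a) = a) ∧ (∀ b, ψ (φ b) = b))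
    (htr : ∀ b : 𝔹, b ≠ 0 → ∀ a : 𝔸, ∃ φ ∈ Φ, φ b = a) :
    ∃ (F : Type) (_ : Field F) (_ : Fintype F) (κA : F ≃+ 𝔸) (κB : F ≃+ 𝔹),
      (∀ φ ∈ Φ, ∃ c : F, ∀ t, φ (κB t) = κA (c * t)) ∧
      (∀ c : F, ∃ φ ∈ Φ, ∀ t, φ (κB t) = κA (c * t)) ∧
      (∀ ψ ∈ Ψ, ∃ c : F, ∀ t, ψ (κA t) = κB (c * t)) ∧
      (∀ c : F, ∃ ψ ∈ Ψ, ∀ t, ψ (κA t) = κB (c * t)) := by
  obtain ⟨e, he⟩ := exists_ne (0 : 𝔸)
  obtain ⟨b₁, hb₁⟩ := exists_ne (0 : 𝔹)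
  obtain ⟨φ₀, hφ₀, hφ₀b⟩ := htr b₁ hb₁ e
  have hφ₀0 : φ₀ ≠ 0 := by
    intro h0
    rw [h0] at hφ₀b
    exact he hφ₀b.symm
  obtain ⟨ψ₀, hψ₀, h00, h00'⟩ := hΦ φ₀ hφ₀ hφ₀0
  have hfin : Finite (AddMonoid.End 𝔸) :=
    Finite.of_injective (fun f : AddMonoid.End 𝔸 => (f : 𝔸 → 𝔸)) DFunLike.coe_injective
  let mk : (𝔸 →+ 𝔸) → AddMonoid.End 𝔸 := fun f => f
  have hmk : ∀ (f : 𝔸 →+ 𝔸) (a : 𝔸), mk f a = f a := fun _ _ => rfl
  have hmulapp : ∀ (k k' : AddMonoid.End 𝔸) (a : 𝔸), (k * k') a = k (k' a) := fun _ _ _ => rfl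
  have haddapp : ∀ (k k' : AddMonoid.End 𝔸) (a : 𝔸), (k + k') a = k a + k' a := fun _ _ _ => rfl
  have hnegapp : ∀ (k : AddMonoid.End 𝔸) (a : 𝔸), (-k) a = - k a := fun _ _ => rfl
  have honeapp : ∀ a : 𝔸, (1 : AddMonoid.End 𝔸) a = a := fun _ => rfl
  have hzeroapp : ∀ a : 𝔸, (0 : AddMonoid.End 𝔸) a = 0 := fun _ => rfl
  have hext : ∀ k k' : AddMonoid.End 𝔸, (∀ a, k a = k' a) → k = k' := fun k k' h =>
    DFunLike.ext k k' h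
  let K₁ : AddSubgroup (AddMonoid.End 𝔸) :=
    { carrier := {k | ∃ φ ∈ Φ, ∀ a, k a = φ (ψ₀ a)}
      zero_mem' := ⟨0, Φ.zero_mem, fun a => rfl⟩
      add_mem' := by
        rintro k k' ⟨φ, hφ, h⟩ ⟨φ', hφ', h'⟩
        exact ⟨φ + φ', Φ.add_mem hφ hφ', fun a => by
          rw [haddapp, h, h']; rfl⟩
      neg_mem' := by
        rintro k ⟨φ, hφ, h⟩
        exact ⟨-φ, Φ.neg_mem hφ, fun a => by rw [hnegapp, h]; rfl⟩ }
  let K₂ : AddSubgroup (AddMonoid.End 𝔸) :=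
    { carrier := {k | ∃ ψ ∈ Ψ, ∀ a, k a = φ₀ (ψ a)}
      zero_mem' := ⟨0, Ψ.zero_mem, fun a => by
        rw [hzeroapp]; exact (map_zero φ₀).symm⟩
      add_mem' := by
        rintro k k' ⟨φ, hφ, h⟩ ⟨φ', hφ', h'⟩
        exact ⟨φ + φ', Ψ.add_mem hφ hφ', fun a => by
          rw [haddapp, h, h', ← map_add]; rfl⟩
      neg_mem' := by
        rintro k ⟨φ, hφ, h⟩
        exact ⟨-φ, Ψ.neg_mem hφ, fun a => by rw [hnegapp, h, ← map_neg]; rfl⟩ }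
  have hK₁ : ∀ k, k ∈ K₁ ↔ ∃ φ ∈ Φ, ∀ a, k a = φ (ψ₀ a) := fun _ => Iff.rfl
  have hK₂ : ∀ k, k ∈ K₂ ↔ ∃ ψ ∈ Ψ, ∀ a, k a = φ₀ (ψ a) := fun _ => Iff.rfl
  have h1 : (1 : AddMonoid.End 𝔸) ∈ K₁ := ⟨φ₀, hφ₀, fun a => (h00 a).symm⟩
  have h1' : (1 : AddMonoid.End 𝔸) ∈ K₂ := ⟨ψ₀, hψ₀, fun a => (h00 a).symm⟩
  have h12 : ∀ k ∈ K₁, k ≠ 0 → ∃ k' ∈ K₂, k * k' = 1 ∧ k' * k = 1 := by
    rintro k ⟨φ, hφ, hk⟩ hk0
    have hφ0 : φ ≠ 0 := by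
      intro h0
      apply hk0
      apply hext
      intro a
      rw [hk, h0]; rfl
    obtain ⟨ψ, hψ, ha, hb⟩ := hΦ φ hφ hφ0
    refine ⟨mk (φ₀.comp ψ), ⟨ψ, hψ, fun a => rfl⟩, ?_, ?_⟩
    · apply hext
      intro a
      rw [hmulapp, honeapp, hk, hmk, AddMonoidHom.comp_apply, h00', ha]
    · apply hext
      intro a
      rw [hmulapp, honeapp, hk, hmk, AddMonoidHom.comp_apply, hb, h00]
  have h21 : ∀ k ∈ K₂, k ≠ 0 → ∃ k' ∈ K₁, k * k' = 1 ∧ k' * k = 1 := by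
    rintro k ⟨ψ, hψ, hk⟩ hk0
    have hψ0 : ψ ≠ 0 := by
      intro h0
      apply hk0
      apply hext
      intro a
      rw [hk, h0, hzeroapp]; exact map_zero φ₀
    obtain ⟨φ, hφ, ha, hb⟩ := hΨ ψ hψ hψ0
    refine ⟨mk (φ.comp ψ₀), ⟨φ, hφ, fun a => rfl⟩, ?_, ?_⟩
    · apply hext
      intro a
      rw [hmulapp, honeapp, hk, hmk, AddMonoidHom.comp_apply, hb, h00]
    · apply hext
      intro a
      rw [hmulapp, honeapp, hk, hmk, AddMonoidHom.comp_apply, h00', ha]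
  have hle1 : K₂ ≤ K₁ := pair_hua K₁ K₂ h1 h1' h12 h21
  have hle2 : K₁ ≤ K₂ := pair_hua K₂ K₁ h1' h1 h21 h12
  have hic : InvClosed K₁ :=
    ⟨h1, fun k hk hk0 => by
      obtain ⟨k', hk', h⟩ := h12 k hk hk0
      exact ⟨k', hle1 hk', h⟩⟩
  have hchar : (1 : AddMonoid.End 𝔸) + 1 = 0 := hext _ _ (fun a => h2 a)
  let Ks : Subring (AddMonoid.End 𝔸) :=
    { carrier := K₁
      mul_mem' := fun ha hb => hic.mul_mem hchar ha hb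
      one_mem' := h1
      add_mem' := fun ha hb => K₁.add_mem ha hb
      zero_mem' := K₁.zero_mem
      neg_mem' := fun ha => K₁.neg_mem ha }
  have hKs : ∀ k, k ∈ Ks ↔ k ∈ K₁ := fun _ => Iff.rfl
  have hfield : IsField ↥Ks :=
    { exists_pair_ne := ⟨0, 1, fun h01 => he (by
        have := congrArg (fun k : ↥Ks => k.1 e) h01
        exact this.symm)⟩
      mul_comm := fun x y => Subtype.ext (hic.comm hchar x.2 y.2)
      mul_inv_cancel := by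
        intro a ha
        obtain ⟨k', hk', h, -⟩ := hic.inv_mem a.1 a.2 (fun h0 => ha (Subtype.ext h0))
        exact ⟨⟨k', hk'⟩, Subtype.ext h⟩ }
  let _ : Field ↥Ks := hfield.toField
  have : Finite ↥Ks := inferInstance
  have : Small.{0} ↥Ks := Countable.toSmall _
  let ι : Shrink.{0} ↥Ks ≃+* ↥Ks := Shrink.ringEquiv.{0} ↥Ks
  have hfinF : Finite (Shrink.{0} ↥Ks) := Finite.of_equiv _ ι.symm.toEquiv
  -- nonzero elements of `K₁` are injective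
  have hkill : ∀ k ∈ K₁, k e = 0 → k = 0 := by
    intro k hk hke
    by_contra hk0
    obtain ⟨k', -, -, h⟩ := hic.inv_mem k hk hk0
    apply he
    calc e = (k' * k) e := by rw [h]; rfl
      _ = k' (k e) := rfl
      _ = 0 := by rw [hke, map_zero]
  have hψ₀e : ψ₀ e ≠ 0 := by
    intro h0
    apply he
    rw [← h00 e, h0, map_zero]
  let κ0 : Shrink.{0} ↥Ks →+ 𝔸 :=
    { toFun := fun t => (ι t).1 e
      map_zero' := by rw [map_zero]; rfl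
      map_add' := fun s t => by rw [map_add]; rfl }
  have hκ0 : ∀ t, κ0 t = (ι t).1 e := fun _ => rfl
  have hκinj : Function.Injective κ0 := by
    rw [injective_iff_map_eq_zero]
    intro t ht
    have := hkill (ι t).1 (ι t).2 ht
    have h3 : ι t = 0 := Subtype.ext this
    exact (map_eq_zero_iff ι ι.injective).mp h3
  have hκsurj : Function.Surjective κ0 := by
    intro a
    obtain ⟨φ, hφ, hφa⟩ := htr (ψ₀ e) hψ₀e a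
    refine ⟨ι.symm ⟨mk (φ.comp ψ₀), ⟨φ, hφ, fun _ => rfl⟩⟩, ?_⟩
    rw [hκ0, RingEquiv.apply_symm_apply]
    exact hφa
  let κA : Shrink.{0} ↥Ks ≃+ 𝔸 := AddEquiv.ofBijective κ0 ⟨hκinj, hκsurj⟩
  have hκA : ∀ t, κA t = (ι t).1 e := fun _ => rfl
  let ψe : 𝔸 ≃+ 𝔹 :=
    { toFun := ψ₀
      invFun := φ₀
      left_inv := h00
      right_inv := h00'
      map_add' := map_add ψ₀ }
  let κB : Shrink.{0} ↥Ks ≃+ 𝔹 := κA.trans ψe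
  have hκB : ∀ t, κB t = ψ₀ (κA t) := fun _ => rfl
  have hmulκ : ∀ c t, κA (c * t) = (ι c).1 (κA t) := by
    intro c t
    rw [hκA, hκA, map_mul]
    rfl
  refine ⟨Shrink.{0} ↥Ks, inferInstance, Fintype.ofFinite _, κA, κB, ?_, ?_, ?_, ?_⟩
  · intro φ hφ
    refine ⟨ι.symm ⟨mk (φ.comp ψ₀), ⟨φ, hφ, fun _ => rfl⟩⟩, fun t => ?_⟩
    rw [hmulκ, RingEquiv.apply_symm_apply, hκB]
    rfl
  · intro c
    obtain ⟨φ, hφ, hc⟩ := (hK₁ _).mp (ι c).2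
    refine ⟨φ, hφ, fun t => ?_⟩
    rw [hmulκ, hc, hκB]
  · intro ψ hψ
    refine ⟨ι.symm ⟨mk (φ₀.comp ψ), hle1 ⟨ψ, hψ, fun _ => rfl⟩⟩, fun t => ?_⟩
    rw [hκB, hmulκ, RingEquiv.apply_symm_apply]
    change ψ (κA t) = ψ₀ (φ₀ (ψ (κA t)))
    rw [h00']
  · intro c
    obtain ⟨ψ, hψ, hc⟩ := (hK₂ _).mp (hle2 (ι c).2)
    refine ⟨ψ, hψ, fun t => ?_⟩
    rw [hκB, hmulκ, hc, h00']

end Cfsg.Agent.Lib.Helper36
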