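import Mathlib.RingTheory.LittleWedderburn
import Mathlib.RingTheory.Idempotents
import Mathlib.Algebra.Ring.Subring.Basic
import Mathlib.GroupTheory.OrderOfElement
import Mathlib.GroupTheory.DedekindFinite

set_option autoImplicit false

namespace Cfsg.Agent.Lib.Helper36

/-- An additive subgroup of a ring containing `1` and closed under `t ↦ s * t * s`. -/
structure UClosed {E : Type*} [Ring E] (K : AddSubgroup E) : Prop where
  one_mem : (1 : E) ∈ K
  U_mem : ∀ s ∈ K, ∀ t ∈ K, s * t * s ∈ K

namespace UClosed

variable {E : Type*} [Ring E] {K : AddSubgroup E}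

theorem pow_mem (h : UClosed K) {a : E} (ha : a ∈ K) : ∀ n : ℕ, a ^ n ∈ K := by
  intro n
  induction n using Nat.strong_induction_on with
  | _ n ih =>
    match n with
    | 0 => simpa using h.one_mem
    | 1 => simpa using ha
    | (m + 2) =>
      have : a ^ (m + 2) = a * a ^ m * a := by
        rw [pow_succ, pow_succ']
      rw [this]
      exact h.U_mem a ha _ (ih m (by omega))

theorem jordan3 (h : UClosed K) {a b m : E} (ha : a ∈ K) (hb : b ∈ K) (hm : m ∈ K) :
    a * m * b + b * m * a ∈ K := by
  have h1 := h.U_mem _ (K.add_mem ha hb) _ hm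
  have h2 := h.U_mem _ ha _ hm
  have h3 := h.U_mem _ hb _ hm
  have : a * m * b + b * m * a = (a + b) * m * (a + b) - a * m * a - b * m * b := by
    noncomm_ring
  rw [this]
  exact K.sub_mem (K.sub_mem h1 h2) h3

theorem jordan2 (h : UClosed K) {a b : E} (ha : a ∈ K) (hb : b ∈ K) :
    a * b + b * a ∈ K := by
  have := h.jordan3 ha hb h.one_mem
  simpa using this

end UClosed

/-- An additive subgroup of a ring containing `1` and closed under inverses of nonzero elements. -/
structure InvClosed {E : Type*} [Ring E] (K : AddSubgroup E) : Prop where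
  one_mem : (1 : E) ∈ K
  inv_mem : ∀ k ∈ K, k ≠ 0 → ∃ k' ∈ K, k * k' = 1 ∧ k' * k = 1

namespace InvClosed

variable {E : Type*} [Ring E] {K : AddSubgroup E}

/-- Hua's identity: `a * b * a ∈ K`. -/
theorem hua (h : InvClosed K) {a b : E} (ha : a ∈ K) (hb : b ∈ K) : a * b * a ∈ K := by
  by_cases ha0 : a = 0
  · subst ha0; simp
  by_cases hb0 : b = 0
  · subst hb0; simp
  obtain ⟨a', ha'K, haa', ha'a⟩ := h.inv_mem a ha ha0
  obtain ⟨b', hb'K, hbb', hb'b⟩ := h.inv_mem b hb hb0
  by_cases hc0 : b' - a = 0
  · have : b' = a := sub_eq_zero.mp hc0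
    rw [← this, hb'b, one_mul]; exact hb'K
  obtain ⟨c', hc'K, hcc', hc'c⟩ := h.inv_mem (b' - a) (K.sub_mem hb'K ha) hc0
  have hs : (a' + c') * ((b' - a) * b * a) = 1 := by
    have e1 : (a' + c') * (b' - a) = a' * b' := by
      have : a' * (b' - a) = a' * b' - 1 := by rw [mul_sub, ha'a]
      rw [add_mul, hc'c, this]; abel
    rw [← mul_assoc, ← mul_assoc, e1, mul_assoc a' b' b, hb'b, mul_one, ha'a]
  have hs0 : a' + c' ≠ 0 := by
    intro h0
    rw [h0, zero_mul] at hs
    apply ha0
    calc a = a * 1 := (mul_one a).symm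
      _ = a * 0 := by rw [hs]
      _ = 0 := mul_zero a
  obtain ⟨t, htK, hst, hts⟩ := h.inv_mem (a' + c') (K.add_mem ha'K hc'K) hs0
  have ht : t = (b' - a) * b * a := by
    calc t = t * ((a' + c') * ((b' - a) * b * a)) := by rw [hs, mul_one]
      _ = (t * (a' + c')) * ((b' - a) * b * a) := (mul_assoc _ _ _).symm
      _ = (b' - a) * b * a := by rw [hts, one_mul]
  have : a * b * a = a - t := by
    rw [ht, sub_mul, sub_mul, hb'b, one_mul]; abel
  rw [this]
  exact K.sub_mem ha htK

theorem toU (h : InvClosed K) : UClosed K :=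
  ⟨h.one_mem, fun _ hs _ ht => h.hua hs ht⟩

/-- In characteristic two every element of `K` has a square root among its powers. -/
theorem exists_sqrt [Finite E] (h2 : (1 : E) + 1 = 0) (h : InvClosed K) {a : E} (ha : a ∈ K) :
    ∃ n : ℕ, a ^ n * a ^ n = a := by
  by_cases ha0 : a = 0
  · exact ⟨1, by subst ha0; simp⟩
  obtain ⟨a', ha'K, haa', ha'a⟩ := h.inv_mem a ha ha0
  let u : Eˣ := ⟨a, a', haa', ha'a⟩
  have hu : ∀ n : ℕ, ((u ^ n : Eˣ) : E) = a ^ n := fun n => by
    rw [Units.val_pow_eq_pow_val]
  have hn : a ^ orderOf u = 1 := by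
    rw [← hu, pow_orderOf_eq_one]; rfl
  have hpos : 0 < orderOf u := orderOf_pos u
  rcases Nat.even_or_odd (orderOf u) with ⟨m, hm⟩ | ⟨m, hm⟩
  · exfalso
    have hvK : a ^ m ∈ K := h.toU.pow_mem ha m
    have hvv : a ^ m * a ^ m = 1 := by rw [← pow_add, ← hm, hn]
    have hv1 : a ^ m ≠ 1 := by
      intro h1
      have : u ^ m = 1 := Units.ext (by rw [hu, h1]; rfl)
      have := orderOf_dvd_of_pow_eq_one this
      have := Nat.le_of_dvd (by omega) this
      omega
    have hw0 : a ^ m + 1 ≠ 0 := by
      intro h0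
      apply hv1
      calc a ^ m = a ^ m + (1 + 1) := by rw [h2, add_zero]
        _ = (a ^ m + 1) + 1 := (add_assoc _ _ _).symm
        _ = 1 := by rw [h0, zero_add]
    have hww : (a ^ m + 1) * (a ^ m + 1) = 0 := by
      have : (a ^ m + 1) * (a ^ m + 1) = a ^ m * a ^ m + a ^ m * (1 + 1) + 1 := by noncomm_ring
      rw [this, hvv, h2, mul_zero, add_zero, h2]
    obtain ⟨w', -, -, hw'⟩ := h.inv_mem _ (K.add_mem hvK h.one_mem) hw0
    apply hw0
    calc a ^ m + 1 = (w' * (a ^ m + 1)) * (a ^ m + 1) := by rw [hw', one_mul]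
      _ = w' * ((a ^ m + 1) * (a ^ m + 1)) := mul_assoc _ _ _
      _ = 0 := by rw [hww, mul_zero]
  · refine ⟨m + 1, ?_⟩
    rw [← pow_add]
    have : m + 1 + (m + 1) = orderOf u + 1 := by omega
    rw [this, pow_succ, hn, one_mul]

theorem mul_mem_of_commute [Finite E] (h2 : (1 : E) + 1 = 0) (h : InvClosed K) {a b : E}
    (ha : a ∈ K) (hb : b ∈ K) (hab : a * b = b * a) : a * b ∈ K := by
  obtain ⟨n, hn⟩ := h.exists_sqrt h2 ha
  have hc : a ^ n * b = b * a ^ n := (Commute.pow_left (show Commute a b from hab) n)
  have : a * b = a ^ n * b * a ^ n := by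
    rw [hc, mul_assoc, hn, hab]
  rw [this]
  exact h.hua (h.toU.pow_mem ha n) hb

end InvClosed

/-- A ring with an involutive anti-automorphism `st` and a `U`-closed additive subgroup of
symmetric elements. -/
structure StarSys {R : Type*} [Ring R] (st : R → R) (S : AddSubgroup R) : Prop where
  st_add : ∀ x y, st (x + y) = st x + st y
  st_mul : ∀ x y, st (x * y) = st y * st x
  st_st : ∀ x, st (st x) = x
  st_fix : ∀ s ∈ S, st s = s
  uc : UClosed S

/-- syllables -/
def wel {R : Type*} [Ring R] (a b : R) (p : Bool × ℕ) : R := (if p.1 then a else b) ^ p.2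

/-- value of a word -/
def wval {R : Type*} [Ring R] (a b : R) (L : List (Bool × ℕ)) : R := (L.map (wel a b)).prod

namespace StarSys

variable {R : Type*} [Ring R] {st : R → R} {S : AddSubgroup R}

theorem wel_mem (h : StarSys st S) {a b : R} (ha : a ∈ S) (hb : b ∈ S) (p : Bool × ℕ) :
    wel a b p ∈ S := by
  unfold wel
  split_ifs
  · exact h.uc.pow_mem ha _
  · exact h.uc.pow_mem hb _

theorem wval_nil (a b : R) : wval a b [] = 1 := rfl

theorem wval_cons (a b : R) (p : Bool × ℕ) (L : List (Bool × ℕ)) :
    wval a b (p :: L) = wel a b p * wval a b L := by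
  simp [wval]

theorem wval_append (a b : R) (L L' : List (Bool × ℕ)) :
    wval a b (L ++ L') = wval a b L * wval a b L' := by
  simp [wval]

theorem wval_single (a b : R) (p : Bool × ℕ) : wval a b [p] = wel a b p := by
  simp [wval]

theorem wel_merge (a b : R) (c : Bool) (i j : ℕ) :
    wel a b (c, i) * wel a b (c, j) = wel a b (c, i + j) := by
  cases c <;> simp [wel, pow_add]

theorem st_wval (h : StarSys st S) {a b : R} (ha : a ∈ S) (hb : b ∈ S) (L : List (Bool × ℕ)) :
    st (wval a b L) = wval a b L.reverse := by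
  induction L with
  | nil => simpa [wval] using h.st_fix 1 h.uc.one_mem
  | cons p L ih =>
    rw [wval_cons, h.st_mul, ih, List.reverse_cons, wval_append, wval_single,
      h.st_fix _ (h.wel_mem ha hb p)]

/-- The word lemma (two generator case of Cohn's theorem). -/
theorem word_tr (h : StarSys st S) {a b : R} (ha : a ∈ S) (hb : b ∈ S) :
    ∀ (n : ℕ) (L : List (Bool × ℕ)), L.length = n → wval a b L + st (wval a b L) ∈ S := by
  intro n
  induction n using Nat.strong_induction_on with
  | _ n ih =>
    intro L hL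
    match L, hL with
    | [], _ =>
      rw [wval_nil, h.st_fix 1 h.uc.one_mem]
      exact S.add_mem h.uc.one_mem h.uc.one_mem
    | p :: r, hL =>
      rcases List.eq_nil_or_concat r with rfl | ⟨v, q, rfl⟩
      · rw [wval_single, h.st_fix _ (h.wel_mem ha hb p)]
        exact S.add_mem (h.wel_mem ha hb p) (h.wel_mem ha hb p)
      rw [List.concat_eq_append] at hL ⊢
      simp only [List.length_cons, List.length_append, List.length_nil] at hL
      have hP := h.wel_mem ha hb p
      have hQ := h.wel_mem ha hb q
      have hstP := h.st_fix _ hP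
      have hstQ := h.st_fix _ hQ
      obtain ⟨c, i⟩ := p
      obtain ⟨c', j⟩ := q
      by_cases hcc : c = c'
      · subst hcc
        have ih1 := ih (v.length + 1) (by omega) (v ++ [(c, j)]) (by simp)
        have ih2 := ih (v.length + 1) (by omega) (v ++ [(c, j + i)]) (by simp)
        have hj := h.uc.jordan2 hP ih1
        rw [wval_append, wval_single, h.st_mul, hstQ] at ih1 hj
        rw [wval_append, wval_single, h.st_mul, h.st_fix _ (h.wel_mem ha hb _)] at ih2
        rw [wval_cons, wval_append, wval_single, h.st_mul, h.st_mul, hstP, hstQ]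
        have e1 : wel a b (c, j + i) = wel a b (c, j) * wel a b (c, i) := (wel_merge a b c j i).symm
        have e2 : wel a b (c, j + i) = wel a b (c, i) * wel a b (c, j) := by
          rw [add_comm]; exact (wel_merge a b c i j).symm
        have : wel a b (c, i) * (wval a b v * wel a b (c, j)) +
            wel a b (c, j) * st (wval a b v) * wel a b (c, i) =
            (wel a b (c, i) * (wval a b v * wel a b (c, j) + wel a b (c, j) * st (wval a b v)) +
              (wval a b v * wel a b (c, j) + wel a b (c, j) * st (wval a b v)) * wel a b (c, i)) -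
            (wval a b v * (wel a b (c, j) * wel a b (c, i)) +
              (wel a b (c, i) * wel a b (c, j)) * st (wval a b v)) := by
          noncomm_ring
        rw [this]
        refine S.sub_mem hj ?_
        rw [← e1, ← e2]
        exact ih2
      · rcases List.eq_nil_or_concat v with rfl | ⟨v₁, l, rfl⟩
        · rw [wval_cons, List.nil_append, wval_single, h.st_mul, hstP, hstQ]
          exact h.uc.jordan2 hP hQ
        rw [List.concat_eq_append] at hL ⊢
        simp only [List.length_append, List.length_cons, List.length_nil] at hL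
        obtain ⟨c'', k⟩ := l
        by_cases hc2 : c'' = c'
        · subst hc2
          have ih1 := ih (v₁.length + 2) (by omega) ((c, i) :: (v₁ ++ [(c'', k + j)])) (by simp)
          have : wval a b ((c, i) :: (v₁ ++ [(c'', k)] ++ [(c'', j)])) =
              wval a b ((c, i) :: (v₁ ++ [(c'', k + j)])) := by
            rw [wval_cons, wval_cons, wval_append, wval_append, wval_append, wval_single,
              wval_single, wval_single, mul_assoc (wval a b v₁), wel_merge]
          rw [this]
          exact ih1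
        · have hc3 : c'' = c := by
            cases c <;> cases c' <;> cases c'' <;> simp_all
          subst hc3
          have hLl := h.wel_mem ha hb (c'', k)
          have ih1 := ih (v₁.length + 1) (by omega) (v₁ ++ [(c'', k)]) (by simp)
          have ih2 := ih (v₁.length + 2) (by omega)
            ((c'', i + k) :: (v₁.reverse ++ [(c', j)])) (by simp)
          have hj := h.uc.jordan3 hP hQ ih1
          have e1 : wval a b ((c'', i + k) :: (v₁.reverse ++ [(c', j)])) =
              wel a b (c'', i) * st (wval a b (v₁ ++ [(c'', k)])) * wel a b (c', j) := by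
            rw [wval_cons, wval_append, wval_single, wval_append, wval_single, h.st_mul,
              h.st_fix _ hLl, ← h.st_wval ha hb, ← wel_merge]
            simp only [mul_assoc]
          rw [e1, h.st_mul, h.st_mul, h.st_st, hstP, hstQ] at ih2
          rw [wval_cons, wval_append _ _ (v₁ ++ [(c'', k)]), wval_single, h.st_mul, h.st_mul,
            hstP, hstQ]
          have : wel a b (c'', i) * (wval a b (v₁ ++ [(c'', k)]) * wel a b (c', j)) +
              wel a b (c', j) * st (wval a b (v₁ ++ [(c'', k)])) * wel a b (c'', i) =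
              (wel a b (c'', i) * (wval a b (v₁ ++ [(c'', k)]) + st (wval a b (v₁ ++ [(c'', k)])))
                  * wel a b (c', j) +
                wel a b (c', j) * (wval a b (v₁ ++ [(c'', k)]) + st (wval a b (v₁ ++ [(c'', k)])))
                  * wel a b (c'', i)) -
              (wel a b (c'', i) * st (wval a b (v₁ ++ [(c'', k)])) * wel a b (c', j) +
                wel a b (c', j) * (wval a b (v₁ ++ [(c'', k)]) * wel a b (c'', i))) := by
            noncomm_ring
          rw [this]
          exact S.sub_mem hj ih2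

theorem st_zero (h : StarSys st S) : st 0 = 0 := h.st_fix 0 S.zero_mem

theorem st_one (h : StarSys st S) : st 1 = 1 := h.st_fix 1 h.uc.one_mem

theorem st_neg (h : StarSys st S) (x : R) : st (-x) = - st x := by
  have := h.st_add (-x) x
  rw [neg_add_cancel, h.st_zero] at this
  exact eq_neg_of_add_eq_zero_left this.symm

theorem closure_tr (h : StarSys st S) {a b : R} (ha : a ∈ S) (hb : b ∈ S) :
    ∀ d ∈ Subring.closure ({a, b} : Set R), d + st d ∈ S := by
  intro d hd
  rw [Subring.mem_closure_iff] at hd
  induction hd using AddSubgroup.closure_induction with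
  | mem x hx =>
    have : ∃ L, wval a b L = x := by
      induction hx using Submonoid.closure_induction with
      | mem y hy =>
        rcases hy with rfl | rfl
        · exact ⟨[(true, 1)], by simp [wval, wel]⟩
        · exact ⟨[(false, 1)], by simp [wval, wel]⟩
      | one => exact ⟨[], rfl⟩
      | mul y z _ _ hy hz =>
        obtain ⟨L1, rfl⟩ := hy
        obtain ⟨L2, rfl⟩ := hz
        exact ⟨L1 ++ L2, wval_append a b L1 L2⟩
    obtain ⟨L, rfl⟩ := this
    exact h.word_tr ha hb _ L rfl
  | zero => rw [h.st_zero, add_zero]; exact S.zero_mem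
  | add x y _ _ hx hy =>
    have : x + y + st (x + y) = (x + st x) + (y + st y) := by rw [h.st_add]; abel
    rw [this]; exact S.add_mem hx hy
  | neg x _ hx =>
    have : -x + st (-x) = -(x + st x) := by rw [h.st_neg]; abel
    rw [this]; exact S.neg_mem hx

theorem closure_st (h : StarSys st S) {a b : R} (ha : a ∈ S) (hb : b ∈ S) :
    ∀ d ∈ Subring.closure ({a, b} : Set R), st d ∈ Subring.closure ({a, b} : Set R) := by
  intro d hd
  induction hd using Subring.closure_induction with
  | mem x hx =>
    have hxS : x ∈ S := by rcases hx with rfl | rfl <;> assumption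
    rw [h.st_fix x hxS]; exact Subring.subset_closure hx
  | zero => rw [h.st_zero]; exact Subring.zero_mem _
  | one => rw [h.st_one]; exact Subring.one_mem _
  | add x y _ _ hx hy => rw [h.st_add]; exact Subring.add_mem _ hx hy
  | neg x _ hx => rw [h.st_neg]; exact Subring.neg_mem _ hx
  | mul x y _ _ hx hy => rw [h.st_mul]; exact Subring.mul_mem _ hy hx

theorem closure_norm (h : StarSys st S) {a b : R} (ha : a ∈ S) (hb : b ∈ S) :
    ∀ d ∈ Subring.closure ({a, b} : Set R), ∀ s ∈ S, s ∈ Subring.closure ({a, b} : Set R) →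
      d * s * st d ∈ S := by
  intro d hd
  induction hd using Subring.closure_induction with
  | mem x hx =>
    intro s hs _
    have hxS : x ∈ S := by rcases hx with rfl | rfl <;> assumption
    rw [h.st_fix x hxS]; exact h.uc.U_mem x hxS s hs
  | zero => intro s _ _; rw [zero_mul, zero_mul]; exact S.zero_mem
  | one => intro s hs _; rw [h.st_one, one_mul, mul_one]; exact hs
  | add x y hxD hyD hx hy =>
    intro s hs hsD
    have h1 := h.closure_tr ha hb (x * s * st y)
      (Subring.mul_mem _ (Subring.mul_mem _ hxD hsD) (h.closure_st ha hb y hyD))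
    rw [h.st_mul, h.st_mul, h.st_st, h.st_fix s hs] at h1
    have : (x + y) * s * st (x + y) =
        x * s * st x + y * s * st y + (x * s * st y + y * (s * st x)) := by
      rw [h.st_add]; noncomm_ring
    rw [this]
    exact S.add_mem (S.add_mem (hx s hs hsD) (hy s hs hsD)) h1
  | neg x _ hx =>
    intro s hs hsD
    have : -x * s * st (-x) = x * s * st x := by rw [h.st_neg]; noncomm_ring
    rw [this]; exact hx s hs hsD
  | mul x y hxD hyD hx hy =>
    intro s hs hsD
    have : x * y * s * st (x * y) = x * (y * s * st y) * st x := by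
      rw [h.st_mul]; simp only [mul_assoc]
    rw [this]
    exact hx _ (hy s hs hsD)
      (Subring.mul_mem _ (Subring.mul_mem _ hyD hsD) (h.closure_st ha hb y hyD))

end StarSys

/-- A `StarSys` in which nonzero elements of `S` are invertible in `S`, and all traces and norms
lie in `S`. -/
structure StarDiv {R : Type*} [Ring R] (st : R → R) (S : AddSubgroup R) : Prop where
  sys : StarSys st S
  inv_mem : ∀ s ∈ S, s ≠ 0 → ∃ s' ∈ S, s * s' = 1 ∧ s' * s = 1
  tr_mem : ∀ d, d + st d ∈ S
  norm_mem : ∀ d, ∀ s ∈ S, d * s * st d ∈ S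

namespace StarDiv

variable {R : Type*} [Ring R] {st : R → R} {S : AddSubgroup R}

theorem isUnit_of_mem (h : StarDiv st S) {s : R} (hs : s ∈ S) (h0 : s ≠ 0) : IsUnit s := by
  obtain ⟨s', -, h1, h2⟩ := h.inv_mem s hs h0
  exact ⟨⟨s, s', h1, h2⟩, rfl⟩

theorem norm_zero [Finite R] (h : StarDiv st S) {d : R} (hd : ¬ IsUnit d) {s : R} (hs : s ∈ S) :
    d * s * st d = 0 := by
  by_contra h0
  obtain ⟨t, -, h1, -⟩ := h.inv_mem _ (h.norm_mem d s hs) h0
  apply hd
  refine IsUnit.of_mul_eq_one (s * st d * t) ?_
  rw [← h1]; simp only [mul_assoc]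

theorem st_nonunit [Finite R] (h : StarDiv st S) {d : R} (hd : ¬ IsUnit d) : ¬ IsUnit (st d) := by
  intro hu
  obtain ⟨y, hy⟩ := hu.exists_right_inv
  apply hd
  refine IsUnit.of_mul_eq_one_right (st y) ?_
  have := congrArg st hy
  rwa [h.sys.st_mul, h.sys.st_st, h.sys.st_one] at this

theorem comm [Finite R] (h2 : (1 : R) + 1 = 0) (h : StarDiv st S) :
    ∀ s ∈ S, ∀ t ∈ S, s * t = t * s := by
  have hxx : ∀ x : R, x + x = 0 := fun x => by
    calc x + x = x * (1 + 1) := by rw [mul_add, mul_one]
      _ = 0 := by rw [h2, mul_zero]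
  have heq : ∀ x y : R, x + y = 0 → x = y := fun x y hxy => by
    calc x = x + (y + y) := by rw [hxx, add_zero]
      _ = (x + y) + y := (add_assoc _ _ _).symm
      _ = y := by rw [hxy, zero_add]
  intro s hs t ht
  by_cases hdiv : ∀ d : R, d ≠ 0 → IsUnit d
  · -- division ring
    rcases subsingleton_or_nontrivial R with hsub | hnt
    · exact Subsingleton.elim _ _
    have : NoZeroDivisors R := ⟨by
      intro x y hxy
      by_cases hx : x = 0
      · exact Or.inl hx
      · right
        obtain ⟨x', hx'⟩ := (hdiv x hx).exists_left_inv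
        calc y = (x' * x) * y := by rw [hx', one_mul]
          _ = x' * (x * y) := mul_assoc _ _ _
          _ = 0 := by rw [hxy, mul_zero]⟩
    have : IsDomain R := NoZeroDivisors.to_isDomain R
    exact (Finite.isDomain_to_isField R).mul_comm s t
  push Not at hdiv
  obtain ⟨d, hd0, hdN⟩ := hdiv
  by_cases hB : ∀ d : R, d ≠ 0 → ¬ IsUnit d → st d = d
  · -- all non-units are symmetric
    have hr : ∀ r : R, d * st r = r * d := by
      intro r
      have hN : ¬ IsUnit (r * d) := by
        intro hu
        obtain ⟨y, hy⟩ := hu.exists_left_inv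
        exact hdN (IsUnit.of_mul_eq_one_right (y * r) (by rw [mul_assoc]; exact hy))
      have : st (r * d) = r * d := by
        by_cases h0 : r * d = 0
        · rw [h0, h.sys.st_zero]
        · exact hB _ h0 hN
      rw [h.sys.st_mul, hB d hd0 hdN] at this
      exact this
    have h1 : (s * t) * d = (t * s) * d := by
      have e1 := hr (s * t)
      rw [h.sys.st_mul, h.sys.st_fix s hs, h.sys.st_fix t ht] at e1
      have e2 := hr t
      rw [h.sys.st_fix t ht] at e2
      have e3 := hr s
      rw [h.sys.st_fix s hs] at e3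
      rw [← e1, ← mul_assoc, e2, mul_assoc, e3, mul_assoc]
    have h3 : s * t + t * s ∈ S := by
      have := h.tr_mem (s * t)
      rwa [h.sys.st_mul, h.sys.st_fix s hs, h.sys.st_fix t ht] at this
    apply heq
    by_contra h0
    obtain ⟨w, hw⟩ := (h.isUnit_of_mem h3 h0).exists_left_inv
    apply hd0
    calc d = (w * (s * t + t * s)) * d := by rw [hw, one_mul]
      _ = w * ((s * t) * d + (t * s) * d) := by rw [mul_assoc, add_mul]
      _ = 0 := by rw [h1, hxx, mul_zero]
  · -- a non-symmetric non-unit gives a nontrivial idempotent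
    push Not at hB
    obtain ⟨d, hd0, hdN, hdst⟩ := hB
    have hu0 : d + st d ≠ 0 := fun h0 => hdst (heq _ _ h0).symm
    obtain ⟨u', hu'S, huu', hu'u⟩ := h.inv_mem _ (h.tr_mem d) hu0
    have hd1 : d * u' * st d = 0 := h.norm_zero hdN hu'S
    have hd2 : d * u' * d = d := by
      calc d * u' * d = d * u' * d + d * u' * st d := by rw [hd1, add_zero]
        _ = d * (u' * (d + st d)) := by noncomm_ring
        _ = d := by rw [hu'u, mul_one]
    obtain ⟨e, he⟩ : ∃ e, e = d * u' := ⟨_, rfl⟩
    have hee : e * e = e := by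
      rw [he, ← mul_assoc, hd2]
    have he0 : e ≠ 0 := by
      intro h0
      apply hd0
      rw [← hd2, ← he, h0, zero_mul]
    have heN : ¬ IsUnit e := by
      intro hu
      obtain ⟨y, hy⟩ := hu.exists_right_inv
      exact hdN (IsUnit.of_mul_eq_one (u' * y) (by rw [← mul_assoc, ← he]; exact hy))
    have hsteN := h.st_nonunit heN
    have h1 : e * st e = 0 := by
      have := h.norm_zero heN h.sys.uc.one_mem
      rwa [mul_one] at this
    have h1' : st e * e = 0 := by
      have := h.norm_zero hsteN h.sys.uc.one_mem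
      rwa [mul_one, h.sys.st_st] at this
    have hstee : st e * st e = st e := by rw [← h.sys.st_mul, hee]
    have ht0 : e + st e ≠ 0 := by
      intro h0
      have : e = st e := heq _ _ h0
      apply he0
      rw [← hee]
      nth_rewrite 2 [this]
      exact h1
    have htt : (e + st e) * (e + st e) = e + st e := by
      have : (e + st e) * (e + st e) = e * e + e * st e + st e * e + st e * st e := by
        noncomm_ring
      rw [this, hee, h1, h1', hstee, add_zero, add_zero]
    have ht1 : e + st e = 1 := by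
      obtain ⟨w, -, hw, -⟩ := h.inv_mem _ (h.tr_mem e) ht0
      calc e + st e = (e + st e) * ((e + st e) * w) := by rw [hw, mul_one]
        _ = ((e + st e) * (e + st e)) * w := (mul_assoc _ _ _).symm
        _ = 1 := by rw [htt, hw]
    have hste : st e = 1 + e := by
      apply heq
      calc st e + (1 + e) = (e + st e) + 1 := by abel
        _ = 0 := by rw [ht1, h2]
    have hcomm : ∀ x ∈ S, e * x = e * x * e ∧ x * e = e * x * e := by
      intro x hx
      constructor
      · have := h.norm_zero heN hx
        rw [hste, mul_add, mul_one] at this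
        exact heq _ _ this
      · have := h.norm_zero hsteN hx
        rw [h.sys.st_st, hste, add_mul, add_mul, one_mul] at this
        exact heq _ _ this
    have hc : ∀ x ∈ S, e * x = x * e := fun x hx => by
      rw [(hcomm x hx).1, ← (hcomm x hx).2]
    have idem : IsIdempotentElem e := hee
    -- the corner ring is a finite division ring
    have : Finite idem.Corner := inferInstanceAs (Finite ↥(Subsemigroup.corner e))
    have hone : (1 : idem.Corner).1 = e := rfl
    have hzero : (0 : idem.Corner).1 = 0 := rfl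
    have hmul : ∀ x y : idem.Corner, (x * y : idem.Corner).1 = x.1 * y.1 :=
      fun _ _ => rfl
    have : Nontrivial idem.Corner := ⟨⟨0, 1, fun h01 => he0 (by
      have := congrArg (fun x : idem.Corner => x.1) h01
      simp only [hone, hzero] at this
      exact this.symm)⟩⟩
    have hinv : ∀ x : idem.Corner, x ≠ 0 → ∃ y : idem.Corner, x * y = 1 := by
      intro x hx
      obtain ⟨hx1, hx2⟩ := (Subsemigroup.mem_corner_iff idem).mp x.2
      have hx0 : x.1 ≠ 0 := fun h0 => hx (Subtype.ext h0)
      have hest : e * st x.1 = 0 := by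
        have : st x.1 = (1 + e) * st x.1 := by
          conv_lhs => rw [← hx2, h.sys.st_mul, hste]
        rw [this, ← mul_assoc, mul_add, mul_one, hee, hxx, zero_mul]
      have hne : x.1 + st x.1 ≠ 0 := by
        intro h0
        apply hx0
        have := congrArg (fun z => e * z) h0
        simp only [mul_add, hx1, hest, add_zero, mul_zero] at this
        exact this
      obtain ⟨w, -, hw, -⟩ := h.inv_mem _ (h.tr_mem x.1) hne
      refine ⟨⟨e * w * e, w, rfl⟩, Subtype.ext ?_⟩
      change x.1 * (e * w * e) = e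
      have h5 : x.1 * w = e := by
        have := congrArg (fun z => e * z) hw
        simp only [mul_one] at this
        rw [← mul_assoc, mul_add, hx1, hest, add_zero] at this
        exact this
      calc x.1 * (e * w * e) = (x.1 * e) * w * e := by simp only [mul_assoc]
        _ = e := by rw [hx2, h5, hee]
    have : NoZeroDivisors idem.Corner := ⟨by
      intro x y hxy
      by_cases hx : x = 0
      · exact Or.inl hx
      · right
        obtain ⟨x', hx'⟩ := hinv x hx
        have hx'' : x' * x = 1 := mul_eq_one_comm.mp hx'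
        calc y = (x' * x) * y := by rw [hx'', one_mul]
          _ = x' * (x * y) := mul_assoc _ _ _
          _ = 0 := by rw [hxy, mul_zero]⟩
    have : IsDomain idem.Corner := NoZeroDivisors.to_isDomain _
    have hcc := (Finite.isDomain_to_isField idem.Corner).mul_comm ⟨e * s * e, s, rfl⟩
      ⟨e * t * e, t, rfl⟩
    have hcc' : (e * s * e) * (e * t * e) = (e * t * e) * (e * s * e) :=
      congrArg (fun x : idem.Corner => x.1) hcc
    rw [← (hcomm s hs).2, ← (hcomm t ht).2] at hcc'
    -- `s * e * (t * e) = t * e * (s * e)`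
    have h6 : (s * t) * e = (t * s) * e := by
      have e1 : s * e * (t * e) = (s * t) * e := by
        rw [mul_assoc s e, ← mul_assoc e t e, hc t ht, mul_assoc t e e, hee, mul_assoc]
      have e2 : t * e * (s * e) = (t * s) * e := by
        rw [mul_assoc t e, ← mul_assoc e s e, hc s hs, mul_assoc s e e, hee, mul_assoc]
      rw [← e1, ← e2]; exact hcc'
    have h7 : (1 + e) * (t * s) = (1 + e) * (s * t) := by
      have := congrArg st h6
      rwa [h.sys.st_mul, h.sys.st_mul, h.sys.st_mul, h.sys.st_mul, h.sys.st_fix s hs,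
        h.sys.st_fix t ht, hste] at this
    have h8 : e * (s * t) = (s * t) * e := by
      rw [← mul_assoc, hc s hs, mul_assoc, hc t ht, mul_assoc]
    have h9 : e * (t * s) = (t * s) * e := by
      rw [← mul_assoc, hc t ht, mul_assoc, hc s hs, mul_assoc]
    rw [add_mul, add_mul, one_mul, one_mul, h8, h9, h6] at h7
    exact (add_right_cancel h7).symm

end StarDiv

section Assembly

variable {E : Type*} [Ring E]

/-- the exchange involution on `E × Eᵐᵒᵖ` -/
def exSt (x : E × Eᵐᵒᵖ) : E × Eᵐᵒᵖ := (x.2.unop, MulOpposite.op x.1)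

/-- the diagonal copy of `K` in `E × Eᵐᵒᵖ` -/
def exDiag (K : AddSubgroup E) : AddSubgroup (E × Eᵐᵒᵖ) where
  carrier := {x | x.1 ∈ K ∧ x.2 = MulOpposite.op x.1}
  zero_mem' := ⟨K.zero_mem, rfl⟩
  add_mem' := by
    rintro x y ⟨hx1, hx2⟩ ⟨hy1, hy2⟩
    exact ⟨K.add_mem hx1 hy1, by simp [hx2, hy2]⟩
  neg_mem' := by
    rintro x ⟨hx1, hx2⟩
    exact ⟨K.neg_mem hx1, by simp [hx2]⟩

theorem mem_exDiag {K : AddSubgroup E} {x : E × Eᵐᵒᵖ} :
    x ∈ exDiag K ↔ x.1 ∈ K ∧ x.2 = MulOpposite.op x.1 := Iff.rfl

theorem exSys {K : AddSubgroup E} (h : UClosed K) : StarSys (exSt (E := E)) (exDiag K) where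
  st_add x y := rfl
  st_mul x y := rfl
  st_st x := rfl
  st_fix := by
    rintro ⟨x1, x2⟩ ⟨_, hx2⟩
    simp only at hx2
    subst hx2
    rfl
  uc :=
    { one_mem := ⟨h.one_mem, rfl⟩
      U_mem := by
        rintro ⟨x1, x2⟩ ⟨hx1, hx2⟩ ⟨y1, y2⟩ ⟨hy1, hy2⟩
        simp only at hx1 hx2 hy1 hy2
        subst hx2 hy2
        refine ⟨h.U_mem _ hx1 _ hy1, ?_⟩
        simp [mul_assoc] }

theorem InvClosed.comm [Finite E] {K : AddSubgroup E} (h2 : (1 : E) + 1 = 0) (h : InvClosed K)
    {a b : E} (ha : a ∈ K) (hb : b ∈ K) : a * b = b * a := by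
  have sys := exSys h.toU
  have : Finite Eᵐᵒᵖ := Finite.of_equiv E MulOpposite.opEquiv
  obtain ⟨a1, ha1⟩ : ∃ a1 : E × Eᵐᵒᵖ, a1 = (a, MulOpposite.op a) := ⟨_, rfl⟩
  obtain ⟨b1, hb1⟩ : ∃ b1 : E × Eᵐᵒᵖ, b1 = (b, MulOpposite.op b) := ⟨_, rfl⟩
  have haS : a1 ∈ exDiag K := by rw [ha1]; exact ⟨ha, rfl⟩
  have hbS : b1 ∈ exDiag K := by rw [hb1]; exact ⟨hb, rfl⟩
  obtain ⟨D, hD⟩ : ∃ D : Subring (E × Eᵐᵒᵖ), D = Subring.closure ({a1, b1} : Set (E × Eᵐᵒᵖ)) :=
    ⟨_, rfl⟩
  have hst : ∀ d ∈ D, exSt d ∈ D := by rw [hD]; exact sys.closure_st haS hbS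
  have htr : ∀ d ∈ D, d + exSt d ∈ exDiag K := by rw [hD]; exact sys.closure_tr haS hbS
  have hnorm : ∀ d ∈ D, ∀ s ∈ exDiag K, s ∈ D → d * s * exSt d ∈ exDiag K := by
    rw [hD]; exact sys.closure_norm haS hbS
  have haD : a1 ∈ D := by rw [hD]; exact Subring.subset_closure (by simp)
  have hbD : b1 ∈ D := by rw [hD]; exact Subring.subset_closure (by simp)
  let st' : ↥D → ↥D := fun d => ⟨exSt d.1, hst d.1 d.2⟩
  let S' : AddSubgroup ↥D := (exDiag K).comap D.subtype.toAddMonoidHom
  have hS' : ∀ d : ↥D, d ∈ S' ↔ d.1 ∈ exDiag K := fun d => Iff.rfl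
  have hdiv : StarDiv st' S' :=
    { sys :=
        { st_add := fun x y => Subtype.ext (sys.st_add x.1 y.1)
          st_mul := fun x y => Subtype.ext (sys.st_mul x.1 y.1)
          st_st := fun x => Subtype.ext (sys.st_st x.1)
          st_fix := fun s hs => Subtype.ext (sys.st_fix s.1 hs)
          uc :=
            { one_mem := sys.uc.one_mem
              U_mem := fun s hs t ht => sys.uc.U_mem s.1 hs t.1 ht } }
      inv_mem := by
        intro s hs hs0
        obtain ⟨hs1, hs2⟩ := (hS' s).mp hs
        have hk0 : s.1.1 ≠ 0 := by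
          intro h0
          apply hs0
          apply Subtype.ext
          apply Prod.ext
          · exact h0
          · rw [hs2, h0]; rfl
        obtain ⟨k', hk'K, hkk', hk'k⟩ := h.inv_mem _ hs1 hk0
        have hl : ((k', MulOpposite.op k') : E × Eᵐᵒᵖ) * s.1 = 1 := by
          apply Prod.ext
          · exact hk'k
          · change MulOpposite.op k' * s.1.2 = 1
            rw [hs2, ← MulOpposite.op_mul, hkk']; rfl
        have inj : Function.Injective (fun t : ↥D => s * t) := by
          intro t1 t2 ht
          have ht' : s.1 * t1.1 = s.1 * t2.1 := congrArg Subtype.val ht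
          apply Subtype.ext
          calc t1.1 = (((k', MulOpposite.op k') : E × Eᵐᵒᵖ) * s.1) * t1.1 := by rw [hl, one_mul]
            _ = ((k', MulOpposite.op k') : E × Eᵐᵒᵖ) * (s.1 * t1.1) := mul_assoc _ _ _
            _ = (((k', MulOpposite.op k') : E × Eᵐᵒᵖ) * s.1) * t2.1 := by rw [ht', mul_assoc]
            _ = t2.1 := by rw [hl, one_mul]
        obtain ⟨t, ht⟩ := (Finite.injective_iff_surjective.mp inj) 1
        have ht' : s.1 * t.1 = 1 := congrArg Subtype.val ht
        have ht1 : t.1 = (k', MulOpposite.op k') := by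
          calc t.1 = (((k', MulOpposite.op k') : E × Eᵐᵒᵖ) * s.1) * t.1 := by rw [hl, one_mul]
            _ = ((k', MulOpposite.op k') : E × Eᵐᵒᵖ) * (s.1 * t.1) := mul_assoc _ _ _
            _ = (k', MulOpposite.op k') := by rw [ht', mul_one]
        refine ⟨t, ?_, ht, mul_eq_one_comm.mp ht⟩
        rw [hS', ht1]
        exact ⟨hk'K, rfl⟩
      tr_mem := fun d => htr d.1 d.2
      norm_mem := fun d s hs => hnorm d.1 d.2 s.1 hs s.2 }
  have h2' : (1 : ↥D) + 1 = 0 := by
    apply Subtype.ext
    apply Prod.ext
    · exact h2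
    · exact MulOpposite.unop_injective h2
  have := hdiv.comm h2' ⟨a1, haD⟩ haS ⟨b1, hbD⟩ hbS
  have h3 : a1 * b1 = b1 * a1 := congrArg Subtype.val this
  rw [ha1, hb1] at h3
  exact congrArg Prod.fst h3

/-- **Field theorem.**  In a finite ring of characteristic two, an additive subgroup containing
`1` and closed under inverses is commutative and closed under multiplication. -/
theorem InvClosed.mul_mem [Finite E] {K : AddSubgroup E} (h2 : (1 : E) + 1 = 0) (h : InvClosed K)
    {a b : E} (ha : a ∈ K) (hb : b ∈ K) : a * b ∈ K :=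
  h.mul_mem_of_commute h2 ha hb (h.comm h2 ha hb)

end Assembly

end Cfsg.Agent.Lib.Helper36
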