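import Cfsg.Agent.Lib.Helper81.Kno.Act

set_option autoImplicit false

namespace Cfsg.Agent.Lib.Helper81.Kno

universe u v

section GRP
variable {X : Type u} [Group X] [Finite X] (p : ℕ) [Fact p.Prime] (V : Subgroup X) [V.Normal]

theorem grp_coprime (hidx : ¬ p ∣ V.index) (G : Subgroup X) (hGV : Subgroup.IsComplement' V G)
    (Hs : Subgroup X) (hHs : Hs ≤ G) : (Nat.card Hs).Coprime p := by
  have h1 : V.index = Nat.card G := hGV.symm.index_eq_card
  have h2 : Nat.card Hs ∣ Nat.card G := Subgroup.card_dvd_of_le hHs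
  have hp : p.Prime := Fact.out
  have h3 : (Nat.card G).Coprime p := by
    rw [Nat.coprime_comm, hp.coprime_iff_not_dvd, ← h1]
    exact hidx
  exact Nat.Coprime.coprime_dvd_left h2 h3

theorem grp_faithful (hself : Subgroup.centralizer (V : Set X) = V) (G : Subgroup X)
    (hGV : Subgroup.IsComplement' V G) (Hs : Subgroup X) (hHs : Hs ≤ G) (h : Hs)
    (hh : actV V Hs h = 1) : h = 1 := by
  have h1 : (h : X) ∈ Subgroup.centralizer (V : Set X) := by
    rw [Subgroup.mem_centralizer_iff]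
    intro w hw
    have h2 : actV V Hs h ⟨w, hw⟩ = ⟨w, hw⟩ := by rw [hh]; rfl
    have h3 : (h : X) * w * (h : X)⁻¹ = w := congrArg Subtype.val h2
    conv_lhs => rw [← h3]
    group
  rw [hself] at h1
  have h4 : (h : X) ∈ V ⊓ G := ⟨h1, hHs h.2⟩
  rw [hGV.disjoint.eq_bot, Subgroup.mem_bot] at h4
  exact Subtype.ext h4

theorem grp_key (hVexp : ∀ v ∈ V, v ^ p = 1) (hidx : ¬ p ∣ V.index)
    (hself : Subgroup.centralizer (V : Set X) = V) (G : Subgroup X)
    (hGV : Subgroup.IsComplement' V G) (v : X) (hv : v ∈ V)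
    (hab : ∀ a ∈ G ⊓ Subgroup.centralizer ({v} : Set X),
      ∀ b ∈ G ⊓ Subgroup.centralizer ({v} : Set X), a * b = b * a)
    (t : ℕ) (ht : ¬ p ∣ t) (h h' : X) (hh : h ∈ G ⊓ Subgroup.centralizer ({v} : Set X))
    (hh' : h' ∈ G ⊓ Subgroup.centralizer ({v} : Set X)) (x : X)
    (hx : x * (v ^ t * h) * x⁻¹ = v ^ t * h') :
    ∃ u ∈ V, ∃ g ∈ G ⊓ Subgroup.centralizer ({v} : Set X),
      x = u * g ∧ u * h * u⁻¹ = h' := by
  have hp : p.Prime := Fact.out
  obtain ⟨H, hH⟩ : ∃ H : Subgroup X, H = G ⊓ Subgroup.centralizer ({v} : Set X) := ⟨_, rfl⟩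
  rw [← hH] at hab hh hh' ⊢
  obtain ⟨n, hn⟩ : ∃ n : ℕ, n = Nat.card H := ⟨_, rfl⟩
  have hcop : n.Coprime p := by
    rw [hn]; exact grp_coprime p V hidx G hGV H (hH ▸ inf_le_left)
  have hHc : ∀ k ∈ H, k * v = v * k := by
    intro k hk
    rw [hH] at hk
    have := (Subgroup.mem_inf.mp hk).2
    rwa [Subgroup.mem_centralizer_singleton_iff] at this
  have hcomm : ∀ k ∈ H, Commute (v ^ t) k := by
    intro k hk
    have := hHc k hk
    have h1 : Commute v k := this.symm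
    exact h1.pow_left t
  have hpow : ∀ k ∈ H, (v ^ t * k) ^ n = (v ^ t) ^ n := by
    intro k hk
    rw [(hcomm k hk).mul_pow]
    have : k ^ n = 1 := by
      have h1 : (⟨k, hk⟩ : H) ^ n = 1 := by rw [hn]; exact pow_card_eq_one'
      have := congrArg Subtype.val h1
      simpa using this
    rw [this, mul_one]
  have h1 : x * (v ^ t) ^ n * x⁻¹ = (v ^ t) ^ n := by
    rw [← hpow h hh, ← conj_pow, hx, hpow h' hh', hpow h hh]
  have hcop2 : (t * n).Coprime p := by
    refine Nat.Coprime.mul_left ?_ hcop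
    rw [Nat.coprime_comm, hp.coprime_iff_not_dvd]
    exact ht
  obtain ⟨m, -, hm⟩ := Nat.exists_mul_mod_eq_one_of_coprime hcop2 hp.one_lt
  have hvm : ((v ^ t) ^ n) ^ m = v := by
    rw [← pow_mul, ← pow_mul, ← mul_assoc, pow_eq_pow_mod _ (hVexp v hv), hm, pow_one]
  have h2 : x * v * x⁻¹ = v := by
    conv_lhs => rw [← hvm]
    rw [← conj_pow, h1, hvm]
  have h3 : x * h * x⁻¹ = h' := by
    have h4 : x * v ^ t * x⁻¹ = v ^ t := by rw [← conj_pow, h2]
    have h5 : x * (v ^ t * h) * x⁻¹ = (x * v ^ t * x⁻¹) * (x * h * x⁻¹) := by group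
    rw [h5, h4] at hx
    exact mul_left_cancel hx
  obtain ⟨⟨u, g⟩, hug, -⟩ := (Subgroup.isComplement_iff_existsUnique.mp hGV) x
  simp only at hug
  have huv : (u : X) * v = v * (u : X) := by
    have : (u : X) ∈ Subgroup.centralizer (V : Set X) := by rw [hself]; exact u.2
    rw [Subgroup.mem_centralizer_iff] at this
    exact (this v hv).symm
  have hgH : (g : X) ∈ H := by
    rw [hH]
    refine Subgroup.mem_inf.mpr ⟨g.2, ?_⟩
    rw [Subgroup.mem_centralizer_singleton_iff]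
    have h6 : (g : X) = (u : X)⁻¹ * x := by rw [← hug]; group
    have h7 : x * v = v * x := by
      conv_rhs => rw [← h2]
      group
    have h8 : (u : X)⁻¹ * v = v * (u : X)⁻¹ := by
      have : (u : X)⁻¹ * ((u : X) * v) * (u : X)⁻¹ = (u : X)⁻¹ * (v * (u : X)) * (u : X)⁻¹ := by
        rw [huv]
      rw [show (u : X)⁻¹ * ((u : X) * v) * (u : X)⁻¹ = v * (u : X)⁻¹ by group,
        show (u : X)⁻¹ * (v * (u : X)) * (u : X)⁻¹ = (u : X)⁻¹ * v by group] at this
      exact this.symm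
    rw [h6, mul_assoc, h7, ← mul_assoc, h8, mul_assoc]
  refine ⟨u, u.2, g, hgH, hug.symm, ?_⟩
  rw [← h3, ← hug]
  have h9 : (g : X) * h = h * (g : X) := hab _ hgH _ hh
  have : (u : X) * (g : X) * h * ((u : X) * (g : X))⁻¹
      = (u : X) * ((g : X) * h) * (g : X)⁻¹ * (u : X)⁻¹ := by group
  rw [this, h9]
  group

theorem grp_conj (hVexp : ∀ v ∈ V, v ^ p = 1) (hidx : ¬ p ∣ V.index)
    (hself : Subgroup.centralizer (V : Set X) = V) (G : Subgroup X) (hGV : Subgroup.IsComplement' V G) (v : X) (hv : v ∈ V)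
    (hab : ∀ a ∈ G ⊓ Subgroup.centralizer ({v} : Set X),
      ∀ b ∈ G ⊓ Subgroup.centralizer ({v} : Set X), a * b = b * a)
    (t : ℕ) (ht : ¬ p ∣ t) (h h' : ↥(G ⊓ Subgroup.centralizer ({v} : Set X)))
    (hc : IsConj (v ^ t * (h : X)) (v ^ t * (h' : X))) : h = h' := by
  rw [isConj_iff] at hc
  obtain ⟨x, hx⟩ := hc
  obtain ⟨u, hu, g, -, -, h1⟩ := grp_key p V hVexp hidx hself G hGV v hv hab t ht h h' h.2 h'.2 x hx
  have h2 : (h' : X) * (h : X)⁻¹ ∈ V ⊓ G := by
    refine ⟨?_, G.mul_mem h'.2.1 (G.inv_mem h.2.1)⟩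
    rw [← h1]
    have : u * (h : X) * u⁻¹ * (h : X)⁻¹ = u * ((h : X) * u⁻¹ * (h : X)⁻¹) := by group
    rw [this]
    exact V.mul_mem hu (‹V.Normal›.conj_mem _ (V.inv_mem hu) _)
  rw [hGV.disjoint.eq_bot, Subgroup.mem_bot] at h2
  exact Subtype.ext (mul_inv_eq_one.mp h2).symm

theorem grp_card (hVexp : ∀ v ∈ V, v ^ p = 1) (hidx : ¬ p ∣ V.index)
    (hself : Subgroup.centralizer (V : Set X) = V)
    (G : Subgroup X) (hGV : Subgroup.IsComplement' V G) (v : X) (hv : v ∈ V)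
    (hab : ∀ a ∈ G ⊓ Subgroup.centralizer ({v} : Set X),
      ∀ b ∈ G ⊓ Subgroup.centralizer ({v} : Set X), a * b = b * a)
    (t : ℕ) (ht : ¬ p ∣ t) (h : ↥(G ⊓ Subgroup.centralizer ({v} : Set X))) :
    Nat.card (Subgroup.centralizer ({v ^ t * (h : X)} : Set X))
      = Nat.card ↥(G ⊓ Subgroup.centralizer ({v} : Set X))
        * Nat.card {x : V // actV V (G ⊓ Subgroup.centralizer ({v} : Set X)) h x = x} := by
  rw [← Nat.card_prod]
  symm
  have hVab : ∀ a ∈ V, ∀ b ∈ V, a * b = b * a := by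
    intro a ha b hb
    have : a ∈ Subgroup.centralizer (V : Set X) := by rw [hself]; exact ha
    rw [Subgroup.mem_centralizer_iff] at this
    exact (this b hb).symm
  have hfix : ∀ w : {x : V // actV V (G ⊓ Subgroup.centralizer ({v} : Set X)) h x = x},
      (h : X) * ((w : V) : X) * (h : X)⁻¹ = ((w : V) : X) := fun w => congrArg Subtype.val w.2
  have hmem : ∀ y : ↥(G ⊓ Subgroup.centralizer ({v} : Set X)) ×
      {x : V // actV V (G ⊓ Subgroup.centralizer ({v} : Set X)) h x = x},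
      ((y.2 : V) : X) * (y.1 : X) ∈ Subgroup.centralizer ({v ^ t * (h : X)} : Set X) := by
    rintro ⟨g, w⟩
    rw [Subgroup.mem_centralizer_singleton_iff]
    simp only
    have h1 : (g : X) * v = v * (g : X) := by
      have := (Subgroup.mem_inf.mp g.2).2
      rwa [Subgroup.mem_centralizer_singleton_iff] at this
    have h1' : Commute (g : X) (v ^ t) := (show Commute (g : X) v from h1).pow_right t
    have h2 : Commute ((w : V) : X) (v ^ t) :=
      (show Commute ((w : V) : X) v from hVab _ (w : V).2 _ hv).pow_right t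
    have h3 : Commute (g : X) (h : X) := hab _ g.2 _ h.2
    have h4 : Commute ((w : V) : X) (h : X) := by
      have := hfix w
      show ((w : V) : X) * (h : X) = (h : X) * ((w : V) : X)
      conv_lhs => rw [← this]
      group
    exact ((h2.mul_right h4).mul_left (h1'.mul_right h3)).eq
  refine Nat.card_congr (Equiv.ofBijective (fun y => ⟨((y.2 : V) : X) * (y.1 : X), hmem y⟩) ⟨?_, ?_⟩)
  · rintro ⟨g, w⟩ ⟨g', w'⟩ hy
    have hy' : ((w : V) : X) * (g : X) = ((w' : V) : X) * (g' : X) := congrArg Subtype.val hy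
    have h2 : (((w' : V) : X))⁻¹ * ((w : V) : X) ∈ V ⊓ G := by
      refine ⟨V.mul_mem (V.inv_mem (w' : V).2) (w : V).2, ?_⟩
      have : (((w' : V) : X))⁻¹ * ((w : V) : X) = (g' : X) * (g : X)⁻¹ := by
        rw [inv_mul_eq_iff_eq_mul, ← mul_assoc, ← hy']
        group
      rw [this]
      exact G.mul_mem g'.2.1 (G.inv_mem g.2.1)
    rw [hGV.disjoint.eq_bot, Subgroup.mem_bot, inv_mul_eq_one] at h2
    have h3 : (g : X) = (g' : X) := by
      rw [h2] at hy'
      exact mul_left_cancel hy'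
    have e1 : g = g' := Subtype.ext h3
    have e2 : w = w' := Subtype.ext (Subtype.ext h2.symm)
    rw [e1, e2]
  · rintro ⟨x, hx⟩
    rw [Subgroup.mem_centralizer_singleton_iff] at hx
    have hx' : x * (v ^ t * (h : X)) * x⁻¹ = v ^ t * (h : X) := by
      rw [hx]; group
    obtain ⟨u, hu, g, hg, hxe, h1⟩ := grp_key p V hVexp hidx hself G hGV v hv hab t ht h h h.2 h.2 x hx'
    have hw : actV V (G ⊓ Subgroup.centralizer ({v} : Set X)) h ⟨u, hu⟩ = ⟨u, hu⟩ := by
      apply Subtype.ext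
      show (h : X) * u * (h : X)⁻¹ = u
      have h2 : u * (h : X) = (h : X) * u := by
        conv_rhs => rw [← h1]
        group
      rw [← h2]
      group
    exact ⟨(⟨g, hg⟩, ⟨⟨u, hu⟩, hw⟩), Subtype.ext hxe.symm⟩
end GRP

end Cfsg.Agent.Lib.Helper81.Kno
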