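import Cfsg.Agent.Lib.Helper36.KnoMODAux
import Cfsg.Agent.Lib.Helper81.Kno.PROD
import Cfsg.Agent.Lib.Helper16.KnoGAUSS

set_option autoImplicit false

namespace Cfsg.Agent.Lib.Helper81.Kno

universe u v

/-! ### [MOD] Maschke + simple modules over a commutative group algebra are fields -/
theorem good_of_action (p : ℕ) [Fact p.Prime] (ζ : ℂ) (hζ : IsPrimitiveRoot ζ p)
    {H : Type u} [Group H] [Finite H] (hcomm : ∀ a b : H, a * b = b * a)
    (hH : (Nat.card H).Coprime p) {V : Type v} [CommGroup V] [Finite V] (hV : ∀ x : V, x ^ p = 1)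
    (α : H →* MulAut V) :
    ∃ c : H → ℕ, (∀ h, c h * Nat.card {x : V // α h x = x} = Nat.card V) ∧
      Good p ζ c (fun h => α h = 1) :=
  good_of_action_aux p ζ (good_one p ζ H) (fun h₁ h₂ => good_mul p ζ hζ.pow_eq_one h₁ h₂)
    (fun F _ _ _ ι => good_field p ζ hζ ι) hcomm hH hV α

end Cfsg.Agent.Lib.Helper81.Kno
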