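import Cfsg.Agent.Lib.Helper81.Kno.Defs

set_option autoImplicit false

namespace Cfsg.Agent.Lib.Helper81.Kno

universe u v

theorem good_congr {p : ℕ} {ζ : ℂ} {H : Type u} [Group H] {c c' : H → ℕ} {K K' : H → Prop}
    (h : Good p ζ c K) (hc : ∀ x, c x = c' x) (hK : ∀ x, K x ↔ K' x) : Good p ζ c' K' := by
  have e1 : c = c' := funext hc
  have e2 : K = K' := funext fun x => propext (hK x)
  rw [← e1, ← e2]; exact h

open Classical in
theorem mod_simple (p : ℕ) [Fact p.Prime] (ζ : ℂ) {H : Type u} [Group H]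
    (hfield : ∀ (F : Type u) [Field F] [Finite F] [CharP F p] (ι : H →* Fˣ),
      Good p ζ (fun h => if ι h = 1 then 1 else Nat.card F) (fun h => ι h = 1))
    {R : Type u} [CommRing R] [Finite R] [Algebra (ZMod p) R] (ι₀ : H →* R)
    {S : Type v} [AddCommGroup S] [Module R S] [hS : IsSimpleModule R S] :
    ∃ c : H → ℕ, (∀ h, c h * Nat.card {x : S // ι₀ h • x = x} = Nat.card S) ∧
      Good p ζ c (fun h => ∀ x : S, ι₀ h • x = x) := by
  obtain ⟨I, hI, ⟨e⟩⟩ := isSimpleModule_iff_quot_maximal.mp hS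
  let _ : Field (R ⧸ I) := Ideal.Quotient.field I
  have : Finite (R ⧸ I) := Finite.of_surjective _ Ideal.Quotient.mk_surjective
  have : CharP (R ⧸ I) p :=
    charP_of_injective_algebraMap (algebraMap (ZMod p) (R ⧸ I)).injective p
  let ι : H →* (R ⧸ I)ˣ :=
    (((Ideal.Quotient.mk I : R →+* R ⧸ I) : R →* R ⧸ I).comp ι₀).toHomUnits
  have hι : ∀ h, ((ι h : (R ⧸ I)ˣ) : R ⧸ I) = Ideal.Quotient.mk I (ι₀ h) := fun h => rfl
  have hfix : ∀ h (x : S), ι₀ h • x = x ↔ (ι h = 1 ∨ x = 0) := by
    intro h x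
    rw [← e.injective.eq_iff, map_smul]
    have h1 : ι₀ h • e x = Ideal.Quotient.mk I (ι₀ h) * e x := by
      obtain ⟨y, hy⟩ := Ideal.Quotient.mk_surjective (e x)
      rw [← hy]; rfl
    rw [h1, ← hι, ← sub_eq_zero, ← sub_one_mul, mul_eq_zero, sub_eq_zero, Units.val_eq_one,
      map_eq_zero_iff e e.injective]
  have hcard : Nat.card S = Nat.card (R ⧸ I) := Nat.card_congr e.toEquiv
  refine ⟨fun h => if ι h = 1 then 1 else Nat.card (R ⧸ I), ?_, ?_⟩
  · intro h
    by_cases h1 : ι h = 1
    · simp only [h1, if_true, one_mul]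
      exact Nat.card_congr (Equiv.subtypeUnivEquiv fun x => (hfix h x).mpr (Or.inl h1))
    · simp only [h1, if_false]
      have : Nat.card {x : S // ι₀ h • x = x} = 1 := by
        rw [Nat.card_eq_one_iff_unique]
        refine ⟨⟨?_⟩, ⟨⟨0, smul_zero _⟩⟩⟩
        rintro ⟨a, ha⟩ ⟨b, hb⟩
        have ha' := ((hfix h a).mp ha).resolve_left h1
        have hb' := ((hfix h b).mp hb).resolve_left h1
        exact Subtype.ext (ha'.trans hb'.symm)
      rw [this, mul_one, hcard]
  · refine good_congr (hfield (R ⧸ I) ι) (fun _ => rfl) (fun h => ⟨?_, ?_⟩)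
    · intro h1 x
      exact (hfix h x).mpr (Or.inl h1)
    · intro h1
      have := IsSimpleModule.nontrivial R S
      obtain ⟨x, hx⟩ := exists_ne (0 : S)
      exact ((hfix h x).mp (h1 x)).resolve_right hx

open Classical in
theorem mod_ind (p : ℕ) [Fact p.Prime] (ζ : ℂ) {H : Type u} [Group H]
    (hone : Good p ζ (fun _ : H => 1) (fun _ => True))
    (hmul : ∀ {c₁ c₂ : H → ℕ} {K₁ K₂ : H → Prop}, Good p ζ c₁ K₁ → Good p ζ c₂ K₂ →
      Good p ζ (fun h => c₁ h * c₂ h) (fun h => K₁ h ∧ K₂ h))
    (hfield : ∀ (F : Type u) [Field F] [Finite F] [CharP F p] (ι : H →* Fˣ),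
      Good p ζ (fun h => if ι h = 1 then 1 else Nat.card F) (fun h => ι h = 1))
    {R : Type u} [CommRing R] [Finite R] [Algebra (ZMod p) R] [IsSemisimpleRing R]
    (ι₀ : H →* R) :
    ∀ (n : ℕ) (M : Type v) [AddCommGroup M] [Module R M] [Finite M], Nat.card M = n →
    ∃ c : H → ℕ, (∀ h, c h * Nat.card {x : M // ι₀ h • x = x} = Nat.card M) ∧
      Good p ζ c (fun h => ∀ x : M, ι₀ h • x = x) := by
  intro n
  induction n using Nat.strong_induction_on with
  | _ n ih =>
    intro M _ _ _ hn
    by_cases hM : Subsingleton M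
    · refine ⟨fun _ => 1, ?_, good_congr hone (fun _ => rfl)
        (fun h => ⟨fun _ x => Subsingleton.elim _ _, fun _ => trivial⟩)⟩
      intro h
      rw [one_mul]
      exact Nat.card_congr (Equiv.subtypeUnivEquiv fun x => Subsingleton.elim _ _)
    · rw [not_subsingleton_iff_nontrivial] at hM
      obtain ⟨S, hS⟩ := IsSemisimpleModule.exists_simple_submodule R M
      obtain ⟨T, hST⟩ := exists_isCompl S
      let e := Submodule.prodEquivOfIsCompl S T hST
      have hcard : Nat.card M = Nat.card S * Nat.card T := by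
        rw [← Nat.card_prod]; exact Nat.card_congr e.symm.toEquiv
      have hSnt : Nontrivial S := IsSimpleModule.nontrivial R S
      have hS1 : 1 < Nat.card S := Finite.one_lt_card
      have hT0 : 0 < Nat.card T := Nat.card_pos
      have hlt : Nat.card T < n := by
        rw [← hn, hcard]
        nlinarith
      obtain ⟨c₁, hc₁, hg₁⟩ := mod_simple p ζ hfield ι₀ (S := S)
      obtain ⟨c₂, hc₂, hg₂⟩ := ih _ hlt T rfl
      refine ⟨fun h => c₁ h * c₂ h, ?_, good_congr (hmul hg₁ hg₂) (fun _ => rfl) (fun h => ?_)⟩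
      · intro h
        have hfix : Nat.card {x : M // ι₀ h • x = x}
            = Nat.card {x : S // ι₀ h • x = x} * Nat.card {x : T // ι₀ h • x = x} := by
          rw [← Nat.card_prod]
          refine Nat.card_congr ?_
          refine (Equiv.subtypeEquiv e.symm.toEquiv (p := fun x : M => ι₀ h • x = x)
            (q := fun y : S × T => ι₀ h • y.1 = y.1 ∧ ι₀ h • y.2 = y.2) ?_).trans
            (Equiv.subtypeProdEquivProd (α := S) (β := T) (p := fun a : S => ι₀ h • a = a)
              (q := fun b : T => ι₀ h • b = b))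
          intro x
          obtain ⟨y, rfl⟩ := e.surjective x
          simp only [LinearEquiv.coe_toEquiv, LinearEquiv.symm_apply_apply]
          rw [← map_smul, e.injective.eq_iff, Prod.ext_iff]
          rfl
        rw [hfix, hcard, ← hc₁ h, ← hc₂ h]
        ring
      · constructor
        · rintro ⟨h1, h2⟩ x
          obtain ⟨y, rfl⟩ := e.surjective x
          rw [← map_smul]
          congr 1
          exact Prod.ext (h1 y.1) (h2 y.2)
        · intro h1
          refine ⟨fun x => Subtype.ext ?_, fun x => Subtype.ext ?_⟩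
          · exact h1 x
          · exact h1 x

open Classical in
theorem good_of_action_comm (p : ℕ) [Fact p.Prime] (ζ : ℂ) {H : Type u} [CommGroup H] [Finite H]
    (hone : Good p ζ (fun _ : H => 1) (fun _ => True))
    (hmul : ∀ {c₁ c₂ : H → ℕ} {K₁ K₂ : H → Prop}, Good p ζ c₁ K₁ → Good p ζ c₂ K₂ →
      Good p ζ (fun h => c₁ h * c₂ h) (fun h => K₁ h ∧ K₂ h))
    (hfield : ∀ (F : Type u) [Field F] [Finite F] [CharP F p] (ι : H →* Fˣ),
      Good p ζ (fun h => if ι h = 1 then 1 else Nat.card F) (fun h => ι h = 1))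
    (hH : (Nat.card H).Coprime p) {V : Type v} [CommGroup V] [Finite V] (hV : ∀ x : V, x ^ p = 1)
    (α : H →* MulAut V) :
    ∃ c : H → ℕ, (∀ h, c h * Nat.card {x : V // α h x = x} = Nat.card V) ∧
      Good p ζ c (fun h => α h = 1) := by
  have hp : p.Prime := Fact.out
  have : NeZero (Nat.card H : ZMod p) := ⟨by
    rw [Ne, ZMod.natCast_eq_zero_iff]
    intro hd
    have := Nat.Coprime.eq_one_of_dvd hH.symm hd
    exact hp.one_lt.ne' this⟩
  let _ : Module (ZMod p) (Additive V) := AddCommGroup.zmodModule (n := p) (fun x => hV x.toMul)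
  let ρ : H →* Module.End (ZMod p) (Additive V) :=
    { toFun := fun h => (MonoidHom.toAdditive (α h).toMonoidHom).toZModLinearMap p
      map_one' := by
        ext x
        simp
      map_mul' := by
        intro a b
        ext x
        simp }
  let _ : Module (MonoidAlgebra (ZMod p) H) (Additive V) :=
    Module.compHom _ (MonoidAlgebra.lift (ZMod p) _ H ρ).toRingHom
  have hsm : ∀ h (x : Additive V), (MonoidAlgebra.of (ZMod p) H h) • x
      = Additive.ofMul (α h x.toMul) := by
    intro h x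
    show (MonoidAlgebra.lift (ZMod p) _ H ρ) (MonoidAlgebra.of (ZMod p) H h) x = _
    rw [MonoidAlgebra.lift_of]
    rfl
  have : Finite (H →₀ ZMod p) := Finite.of_equiv _ (Finsupp.equivFunOnFinite (α := H)).symm
  have : Finite (MonoidAlgebra (ZMod p) H) :=
    Finite.of_equiv _ (MonoidAlgebra.coeffEquiv (R := ZMod p) (M := H)).symm
  obtain ⟨c, hc, hg⟩ := mod_ind p ζ hone hmul hfield (R := MonoidAlgebra (ZMod p) H)
    (MonoidAlgebra.of (ZMod p) H) _ (Additive V) rfl
  refine ⟨c, ?_, good_congr hg (fun _ => rfl) ?_⟩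
  · intro h
    have h1 := hc h
    have h2 : Nat.card (Additive V) = Nat.card V := Nat.card_congr Additive.toMul
    have h3 : Nat.card {x : Additive V // (MonoidAlgebra.of (ZMod p) H h) • x = x}
        = Nat.card {x : V // α h x = x} := by
      refine Nat.card_congr (Equiv.subtypeEquiv Additive.toMul ?_)
      intro x
      rw [hsm]
      exact Additive.ofMul.symm_apply_eq.symm
    rw [← h2, ← h3]
    exact h1
  · intro h
    constructor
    · intro h1
      ext x
      have := h1 (Additive.ofMul x)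
      rw [hsm] at this
      exact Additive.ofMul.injective this
    · intro h1 x
      rw [hsm, h1]
      rfl

open Classical in
theorem good_of_action_aux (p : ℕ) [Fact p.Prime] (ζ : ℂ) {H : Type u} [Group H] [Finite H]
    (hone : Good p ζ (fun _ : H => 1) (fun _ => True))
    (hmul : ∀ {c₁ c₂ : H → ℕ} {K₁ K₂ : H → Prop}, Good p ζ c₁ K₁ → Good p ζ c₂ K₂ →
      Good p ζ (fun h => c₁ h * c₂ h) (fun h => K₁ h ∧ K₂ h))
    (hfield : ∀ (F : Type u) [Field F] [Finite F] [CharP F p] (ι : H →* Fˣ),
      Good p ζ (fun h => if ι h = 1 then 1 else Nat.card F) (fun h => ι h = 1))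
    (hcomm : ∀ a b : H, a * b = b * a)
    (hH : (Nat.card H).Coprime p) {V : Type v} [CommGroup V] [Finite V] (hV : ∀ x : V, x ^ p = 1)
    (α : H →* MulAut V) :
    ∃ c : H → ℕ, (∀ h, c h * Nat.card {x : V // α h x = x} = Nat.card V) ∧
      Good p ζ c (fun h => α h = 1) :=
  @good_of_action_comm p _ ζ H (CommGroup.mk hcomm) _ hone hmul hfield hH V _ _ hV α

end Cfsg.Agent.Lib.Helper81.Kno
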