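import Mathlib.GroupTheory.Frattini
import Mathlib.GroupTheory.PGroup
import Mathlib.GroupTheory.Nilpotent
import Mathlib.GroupTheory.Index

set_option autoImplicit false

namespace Cfsg.Agent.Lib.Helper36

open Subgroup

theorem comm_of_sq_eq_one {R : Type*} [Group R] (h : ∀ x : R, x ^ 2 = 1) (a b : R) :
    a * b = b * a := by
  have ha : a⁻¹ = a := inv_eq_of_mul_eq_one_left (by rw [← pow_two]; exact h a)
  have hb : b⁻¹ = b := inv_eq_of_mul_eq_one_left (by rw [← pow_two]; exact h b)
  have hab : (a * b)⁻¹ = a * b := inv_eq_of_mul_eq_one_left (by rw [← pow_two]; exact h _)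
  rw [← hab, mul_inv_rev, ha, hb]

/-- The Frattini subgroup of a finite group of exponent two is trivial. -/
theorem frattini_eq_bot_of_sq_eq_one {R : Type*} [Group R] [Finite R] (h : ∀ x : R, x ^ 2 = 1) :
    frattini R = ⊥ := by
  classical
  have hcomm : IsMulCommutative R := ⟨⟨comm_of_sq_eq_one h⟩⟩
  rw [eq_bot_iff]
  intro g hg
  rw [mem_bot]
  by_contra hg1
  have hfin : (Set.univ : Set (Subgroup R)).Finite := Set.finite_univ
  obtain ⟨K, hK, hKmax⟩ := (Set.toFinite {K : Subgroup R | g ∉ K}).exists_maximal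
    ⟨⊥, by simpa [mem_bot] using hg1⟩
  have hKcoatom : IsCoatom K := by
    refine ⟨fun htop => hK (by rw [htop]; trivial), ?_⟩
    intro L hL
    have hgL : g ∈ L := by
      by_contra hgL
      exact absurd (hKmax hgL hL.le) (not_le_of_gt hL)
    rw [eq_top_iff]
    intro y _
    by_cases hy : y ∈ K
    · exact hL.le hy
    · have hlt : K < K ⊔ zpowers y := by
        refine lt_of_le_of_ne le_sup_left ?_
        intro heq
        apply hy
        rw [heq]
        exact (le_sup_right : zpowers y ≤ K ⊔ zpowers y) (mem_zpowers y)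
      have hgs : g ∈ K ⊔ zpowers y := by
        by_contra hgs
        exact absurd (hKmax hgs hlt.le) (not_le_of_gt hlt)
      have : g ∈ ((K ⊔ zpowers y : Subgroup R) : Set R) := hgs
      rw [Subgroup.mul_normal] at this
      obtain ⟨k, hk, y', hy', rfl⟩ := this
      obtain ⟨i, rfl⟩ := mem_zpowers_iff.mp hy'
      rcases Int.even_or_odd' i with ⟨j, rfl | rfl⟩
      · exfalso
        apply hK
        have : y ^ (2 * j) = 1 := by
          rw [zpow_mul]
          have : y ^ (2 : ℤ) = 1 := by exact_mod_cast h y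
          rw [this, one_zpow]
        simp only [this, mul_one]
        exact hk
      · have hyy : y ^ (2 * j + 1) = y := by
          rw [zpow_add, zpow_mul]
          have : y ^ (2 : ℤ) = 1 := by exact_mod_cast h y
          rw [this, one_zpow, one_mul, zpow_one]
        simp only [hyy] at hgL
        have := L.mul_mem (L.inv_mem (hL.le hk)) hgL
        simpa using this
  exact hK (frattini_le_coatom hKcoatom hg)

/-- In a finite `p`-group, a proper subgroup `R` of a subgroup `H` lies in a proper subgroup of `H`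
normalized by `H`. -/
theorem exists_normal_proper {S : Type*} [Group S] [Finite S] {p : ℕ} [Fact p.Prime]
    (hS : IsPGroup p S) (R H : Subgroup S) (hRH : R ≤ H) (hne : R ≠ H) :
    ∃ M : Subgroup S, R ≤ M ∧ M ≤ H ∧ M ≠ H ∧ ∀ h ∈ H, ∀ m ∈ M, h * m * h⁻¹ ∈ M := by
  have hH : IsPGroup p ↥H := hS.to_subgroup H
  have hnil : Group.IsNilpotent ↥H := hH.isNilpotent
  have hnc : NormalizerCondition ↥H := Group.normalizerCondition_of_isNilpotent
  have hR' : R.subgroupOf H ≠ ⊤ := by
    intro h
    rw [subgroupOf_eq_top] at h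
    exact hne (le_antisymm hRH h)
  rcases eq_top_or_exists_le_coatom (R.subgroupOf H) with h | ⟨M', hM', hRM'⟩
  · exact absurd h hR'
  have hnormal : M'.Normal := NormalizerCondition.normal_of_coatom M' hnc hM'
  refine ⟨M'.map H.subtype, ?_, ?_, ?_, ?_⟩
  · intro r hr
    exact ⟨⟨r, hRH hr⟩, hRM' (mem_subgroupOf.mpr hr), rfl⟩
  · exact map_subtype_le M'
  · intro h
    apply hM'.1
    rw [eq_top_iff]
    intro x _
    have : (x : S) ∈ M'.map H.subtype := by rw [h]; exact x.2
    obtain ⟨y, hy, hyx⟩ := this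
    have : y = x := Subtype.ext hyx
    rwa [← this]
  · rintro h hh _ ⟨m, hm, rfl⟩
    exact ⟨⟨h, hh⟩ * m * ⟨h, hh⟩⁻¹, hnormal.conj_mem m hm ⟨h, hh⟩, rfl⟩

end Cfsg.Agent.Lib.Helper36
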