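import Cfsg.Agent.Lib.Helper36.CentralAut

set_option autoImplicit false

namespace Cfsg.Agent.Lib.Helper36

open Subgroup

/-- The commutator pairing of a group with `E' = Z(E)` of prime order, as a bimultiplicative map
into `ℂˣ` detecting commutation. -/
theorem exists_pairing {E : Type*} [Group E] [Finite E] {p : ℕ} [hp : Fact p.Prime]
    (hcomm : commutator E = center E) (hcard : Nat.card (center E) = p) :
    ∃ c : E →* (E →* ℂˣ), ∀ u x : E, c u x = 1 ↔ u * x = x * u := by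
  obtain ⟨ι, hι⟩ := exists_injective_hom_of_prime_card (Z := center E) hcard
  have hc : ∀ u x : E, u * x * u⁻¹ * x⁻¹ ∈ center E := by
    intro u x
    rw [← hcomm]
    exact Subgroup.commutator_mem_commutator (mem_top u) (mem_top x)
  let c₀ : E → (E →* ℂˣ) := fun u =>
    MonoidHom.mk' (fun x => ι ⟨u * x * u⁻¹ * x⁻¹, hc u x⟩) (by
      intro x y
      rw [← map_mul]
      congr 1
      apply Subtype.ext
      have h1 := (mem_center_iff.mp (hc u y)) x⁻¹
      change u * (x * y) * u⁻¹ * (x * y)⁻¹ = (u * x * u⁻¹ * x⁻¹) * (u * y * u⁻¹ * y⁻¹)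
      calc u * (x * y) * u⁻¹ * (x * y)⁻¹
          = (u * x * u⁻¹) * ((u * y * u⁻¹ * y⁻¹) * x⁻¹) := by group
        _ = (u * x * u⁻¹) * (x⁻¹ * (u * y * u⁻¹ * y⁻¹)) := by rw [h1]
        _ = (u * x * u⁻¹ * x⁻¹) * (u * y * u⁻¹ * y⁻¹) := by group)
  have hc₀ : ∀ u x, c₀ u x = ι ⟨u * x * u⁻¹ * x⁻¹, hc u x⟩ := fun u x => rfl
  let c : E →* (E →* ℂˣ) := MonoidHom.mk' c₀ (by
    intro u v
    ext x
    rw [MonoidHom.mul_apply, hc₀, hc₀, hc₀, ← map_mul]
    congr 2
    apply Subtype.ext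
    have h1 := (mem_center_iff.mp (hc v x)) u
    change u * v * x * (u * v)⁻¹ * x⁻¹ = (u * x * u⁻¹ * x⁻¹) * (v * x * v⁻¹ * x⁻¹)
    have h2 := (mem_center_iff.mp (hc v x)) (u * x * u⁻¹ * x⁻¹)
    calc u * v * x * (u * v)⁻¹ * x⁻¹
        = (u * (v * x * v⁻¹ * x⁻¹)) * x * u⁻¹ * x⁻¹ := by group
      _ = ((v * x * v⁻¹ * x⁻¹) * u) * x * u⁻¹ * x⁻¹ := by rw [h1]
      _ = (v * x * v⁻¹ * x⁻¹) * (u * x * u⁻¹ * x⁻¹) := by group
      _ = (u * x * u⁻¹ * x⁻¹) * (v * x * v⁻¹ * x⁻¹) := h2.symm)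
  have hcapp : ∀ u x, c u x = ι ⟨u * x * u⁻¹ * x⁻¹, hc u x⟩ := fun u x => rfl
  refine ⟨c, fun u x => ?_⟩
  rw [hcapp]
  constructor
  · intro h1
    rw [← map_one ι] at h1
    have h3 : u * x * u⁻¹ * x⁻¹ = 1 := congrArg Subtype.val (hι h1)
    calc u * x = (u * x * u⁻¹ * x⁻¹) * (x * u) := by group
      _ = x * u := by rw [h3, one_mul]
  · intro h
    have : (⟨u * x * u⁻¹ * x⁻¹, hc u x⟩ : center E) = 1 := by
      apply Subtype.ext
      change u * x * u⁻¹ * x⁻¹ = 1
      rw [h]; group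
    rw [this, map_one]

/-- Duality bound: in a group with `E' = Z(E)` of prime order `p`, a normal subgroup `W`
satisfies `|C_E(W)| ≤ p |E : W|`. -/
theorem card_centralizer_le {E : Type*} [Group E] [Finite E] {p : ℕ} [hp : Fact p.Prime]
    (hcomm : commutator E = center E) (hcard : Nat.card (center E) = p)
    (W : Subgroup E) [hW : W.Normal] : Nat.card (centralizer (W : Set E)) ≤ p * W.index := by
  obtain ⟨c, hc⟩ := exists_pairing hcomm hcard
  set D := centralizer (W : Set E) with hD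
  let Λ : ↥D →* (E →* ℂˣ) := c.comp D.subtype
  have hΛ : ∀ (u : ↥D) (x : E), Λ u x = c u x := fun u x => rfl
  have hfin : Finite (E ⧸ W →* ℂˣ) := by
    apply Nat.finite_of_card_ne_zero
    rw [card_hom_units_complex]
    exact Nat.card_pos.ne'
  have hker : Nat.card Λ.ker ≤ p := by
    rw [← hcard]
    apply Nat.card_le_card_of_injective
      (fun u : Λ.ker => (⟨(u : ↥D), by
        rw [mem_center_iff]
        intro x
        have h1 : Λ (u : ↥D) x = 1 := by rw [MonoidHom.mem_ker.mp u.2]; rfl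
        rw [hΛ, hc] at h1
        exact h1.symm⟩ : center E))
    intro u v huv
    apply Subtype.ext
    apply Subtype.ext
    exact congrArg (fun t : center E => (t : E)) huv
  have hvan : ∀ l : Λ.range, ∀ x ∈ W, (l : E →* ℂˣ) x = 1 := by
    rintro ⟨_, u, rfl⟩ x hx
    change Λ u x = 1
    rw [hΛ, hc]
    exact ((mem_centralizer_iff.mp u.2) x hx).symm
  have hrange : Nat.card Λ.range ≤ W.index := by
    calc Nat.card Λ.range ≤ Nat.card (E ⧸ W →* ℂˣ) := by
          apply Nat.card_le_card_of_injective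
            (fun l : Λ.range => QuotientGroup.lift W (l : E →* ℂˣ) (hvan l))
          intro l m hlm
          apply Subtype.ext
          ext x
          have h2 := congrArg (fun f : E ⧸ W →* ℂˣ => f (x : E ⧸ W)) hlm
          have h3 : (l : E →* ℂˣ) x = (m : E →* ℂˣ) x := h2
          rw [h3]
      _ = Nat.card ((E ⧸ W) ⧸ commutator (E ⧸ W)) := card_hom_units_complex _
      _ ≤ Nat.card (E ⧸ W) := Nat.card_le_card_of_surjective _ (QuotientGroup.mk_surjective)
      _ = W.index := rfl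
  have h1 := Λ.ker.card_mul_index
  rw [index_ker] at h1
  rw [← h1]
  exact Nat.mul_le_mul hker hrange

end Cfsg.Agent.Lib.Helper36
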