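import Cfsg.Agent.Lib.Helper36.TI
import Cfsg.Agent.Lib.Helper36.PGroupAux

set_option autoImplicit false

namespace Cfsg.Agent.Lib.Helper36

open Subgroup

/-- `s` normalizes `R`, or the conjugate of `R` by `s` commutes with `R` and meets it trivially. -/
def GoodConj {S : Type*} [Group S] (R : Subgroup S) (s : S) : Prop :=
  s ∈ normalizer (R : Set S) ∨
    ((∀ a ∈ R, ∀ b ∈ R, a * (s * b * s⁻¹) = (s * b * s⁻¹) * a) ∧ (∀ a ∈ R, s * a * s⁻¹ ∈ R → a = 1))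

theorem ti_step1 {S : Type*} [Group S] (R T : Subgroup S)
    (hR : ∀ t ∈ T, GoodConj R t) (hT : ∀ r ∈ R, GoodConj T r) (r t : S) (hr : r ∈ R) (ht : t ∈ T)
    (htN : t ∉ normalizer (R : Set S)) (hrN : r ∉ normalizer (T : Set S))
    (hr2 : ∃ k : ℕ, r ^ (2 ^ k) = 1) : t ^ 2 = 1 := by
  by_contra ht2
  obtain ⟨hc1, -⟩ := (hR t ht).resolve_left htN
  have stepρ : ∀ ρ ∈ R, ρ ∉ normalizer (T : Set S) → ρ * ρ ∉ normalizer (T : Set S) := by
    intro ρ hρ hρN h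
    obtain ⟨hc2, hd2⟩ := (hT ρ hρ).resolve_left hρN
    have h1 : Commute t (ρ * t * ρ⁻¹) := hc2 t ht t ht
    have h1' : t⁻¹ * (ρ * t * ρ⁻¹) = (ρ * t * ρ⁻¹) * t⁻¹ := h1.inv_left
    have h2 : ρ * (t * ρ⁻¹ * t⁻¹) = (t * ρ⁻¹ * t⁻¹) * ρ := hc1 ρ hρ ρ⁻¹ (R.inv_mem hρ)
    have key : ρ * (t * t) * ρ⁻¹ = (ρ * ρ) * t * (ρ * ρ)⁻¹ * t := by
      calc ρ * (t * t) * ρ⁻¹ = (ρ * t * ρ⁻¹) * ((ρ * t * ρ⁻¹) * t⁻¹) * t := by group
        _ = (ρ * t * ρ⁻¹) * (t⁻¹ * (ρ * t * ρ⁻¹)) * t := by rw [h1']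
        _ = ρ * ((t * ρ⁻¹ * t⁻¹) * ρ) * (t * ρ⁻¹ * t⁻¹) * (t * t) := by group
        _ = ρ * (ρ * (t * ρ⁻¹ * t⁻¹)) * (t * ρ⁻¹ * t⁻¹) * (t * t) := by rw [h2]
        _ = (ρ * ρ) * t * (ρ * ρ)⁻¹ * t := by group
    have hmem : ρ * (t * t) * ρ⁻¹ ∈ T := by
      rw [key]
      exact T.mul_mem (((mem_normalizer_iff.mp h) t).mp ht) ht
    have := hd2 (t * t) (T.mul_mem ht ht) hmem
    exact ht2 (by rw [pow_two]; exact this)
  have claim : ∀ i : ℕ, r ^ (2 ^ i) ∈ R ∧ r ^ (2 ^ i) ∉ normalizer (T : Set S) := by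
    intro i
    induction i with
    | zero => simpa using ⟨hr, hrN⟩
    | succ i ih =>
      have e : r ^ (2 ^ (i + 1)) = r ^ (2 ^ i) * r ^ (2 ^ i) := by
        rw [pow_succ, pow_mul, pow_two]
      rw [e]
      exact ⟨R.mul_mem ih.1 ih.1, stepρ _ ih.1 ih.2⟩
  obtain ⟨k, hk⟩ := hr2
  have := (claim k).2
  rw [hk] at this
  exact this (one_mem _)

theorem ti_constr {S : Type*} [Group S] (R T : Subgroup S) (w x : S) (hw : w ∈ R)
    (hwN : w ∈ normalizer (T : Set S)) (hx : x ∈ T)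
    (hc : ∀ a ∈ R, ∀ b ∈ R, a * (x * b * x⁻¹) = (x * b * x⁻¹) * a)
    (hd : ∀ a ∈ R, x * a * x⁻¹ ∈ R → a = 1) (hw2 : w ^ 2 ≠ 1) :
    w⁻¹ * (x * w * x⁻¹) ∈ T ∧ (w⁻¹ * (x * w * x⁻¹)) ^ 2 ≠ 1 := by
  constructor
  · have h1 : w⁻¹ * x * w⁻¹⁻¹ ∈ T := ((mem_normalizer_iff.mp (inv_mem hwN)) x).mp hx
    rw [inv_inv] at h1
    have := T.mul_mem h1 (T.inv_mem hx)
    have e : w⁻¹ * (x * w * x⁻¹) = w⁻¹ * x * w * x⁻¹ := by group
    rw [e]; exact this
  · intro h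
    have h1 : w⁻¹ * (x * w * x⁻¹) = (x * w * x⁻¹) * w⁻¹ := hc w⁻¹ (R.inv_mem hw) w hw
    have h2 : x * (w * w) * x⁻¹ = w * w := by
      calc x * (w * w) * x⁻¹ = (w * w) * (w⁻¹ * (w⁻¹ * (x * w * x⁻¹)) * (x * w * x⁻¹)) := by group
        _ = (w * w) * (w⁻¹ * ((x * w * x⁻¹) * w⁻¹) * (x * w * x⁻¹)) := by rw [h1]
        _ = (w * w) * (w⁻¹ * (x * w * x⁻¹)) ^ 2 := by rw [pow_two]; group
        _ = w * w := by rw [h, mul_one]
    have h3 := hd (w * w) (R.mul_mem hw hw) (by rw [h2]; exact R.mul_mem hw hw)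
    exact hw2 (by rw [pow_two]; exact h3)

theorem ti_core {S : Type*} [Group S] (R T : Subgroup S)
    (h2R : ∀ r ∈ R, ∃ k : ℕ, r ^ (2 ^ k) = 1) (h2T : ∀ t ∈ T, ∃ k : ℕ, t ^ (2 ^ k) = 1)
    (hR : ∀ t ∈ T, GoodConj R t) (hT : ∀ r ∈ R, GoodConj T r) (hwR : ∃ w ∈ R, w ^ 2 ≠ 1) :
    T ≤ normalizer (R : Set S) ∨ R ≤ normalizer (T : Set S) := by
  by_contra hcon
  rw [not_or, SetLike.not_le_iff_exists, SetLike.not_le_iff_exists] at hcon
  obtain ⟨⟨x, hx, hxN⟩, ⟨r, hr, hrN⟩⟩ := hcon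
  have F1 : ∀ t ∈ T, t ∉ normalizer (R : Set S) → t ^ 2 = 1 := fun t ht htN =>
    ti_step1 R T hR hT r t hr ht htN hrN (h2R r hr)
  have F1' : ∀ ρ ∈ R, ρ ∉ normalizer (T : Set S) → ρ ^ 2 = 1 := fun ρ hρ hρN =>
    ti_step1 T R hT hR x ρ hx hρ hρN hxN (h2T x hx)
  obtain ⟨hc, hd⟩ := (hR x hx).resolve_left hxN
  obtain ⟨hc', hd'⟩ := (hT r hr).resolve_left hrN
  have key : ∀ w ∈ R, w ^ 2 ≠ 1 → (w ^ 2) ^ 2 ≠ 1 := by
    intro w hw hw2
    have hwN : w ∈ normalizer (T : Set S) := by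
      by_contra h
      exact hw2 (F1' w hw h)
    have hrwN : r * w ∉ normalizer (T : Set S) := by
      intro h
      apply hrN
      have := mul_mem h (inv_mem hwN)
      simpa using this
    have hrw2 : (r * w) ^ 2 = 1 := F1' _ (R.mul_mem hr hw) hrwN
    have hr2 : r ^ 2 = 1 := F1' r hr hrN
    have hrinv : r⁻¹ = r := inv_eq_of_mul_eq_one_left (by rw [← pow_two]; exact hr2)
    have hinvert : r * w⁻¹ * r⁻¹ = w := by
      rw [pow_two] at hrw2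
      calc r * w⁻¹ * r⁻¹ = r * w⁻¹ * r⁻¹ * (r * w * (r * w)) := by rw [hrw2, mul_one]
        _ = r * r * w := by group
        _ = w := by rw [← pow_two, hr2, one_mul]
    obtain ⟨htT, ht2⟩ := ti_constr R T w x hw hwN hx hc hd hw2
    set t := w⁻¹ * (x * w * x⁻¹) with ht
    have htN : t ∈ normalizer (R : Set S) := by
      by_contra h
      exact ht2 (F1 t htT h)
    obtain ⟨-, hw12⟩ := ti_constr T R t r htT htN hr hc' hd' ht2
    have h1 : r * (x * w * x⁻¹) = (x * w * x⁻¹) * r := hc r hr w hw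
    have h2 : w * (x * w * x⁻¹) = (x * w * x⁻¹) * w := hc w hw w hw
    have e : t⁻¹ * (r * t * r⁻¹) = w ^ 2 := by
      rw [ht, pow_two]
      calc (w⁻¹ * (x * w * x⁻¹))⁻¹ * (r * (w⁻¹ * (x * w * x⁻¹)) * r⁻¹)
          = (x * w * x⁻¹)⁻¹ * w * ((r * w⁻¹ * r⁻¹) * (r * (x * w * x⁻¹)) * r⁻¹) := by group
        _ = (x * w * x⁻¹)⁻¹ * w * (w * ((x * w * x⁻¹) * r) * r⁻¹) := by rw [hinvert, h1]
        _ = (x * w * x⁻¹)⁻¹ * w * (w * (x * w * x⁻¹)) := by group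
        _ = (x * w * x⁻¹)⁻¹ * w * ((x * w * x⁻¹) * w) := by rw [h2]
        _ = (x * w * x⁻¹)⁻¹ * (w * (x * w * x⁻¹)) * w := by group
        _ = (x * w * x⁻¹)⁻¹ * ((x * w * x⁻¹) * w) * w := by rw [h2]
        _ = w * w := by group
    rw [e] at hw12
    exact hw12
  obtain ⟨w, hw, hw2⟩ := hwR
  have claim : ∀ i : ℕ, w ^ (2 ^ i) ∈ R ∧ (w ^ (2 ^ i)) ^ 2 ≠ 1 := by
    intro i
    induction i with
    | zero => simpa using ⟨hw, hw2⟩
    | succ i ih =>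
      have e : w ^ (2 ^ (i + 1)) = (w ^ (2 ^ i)) ^ 2 := by
        rw [pow_succ, pow_mul]
      rw [e]
      exact ⟨R.pow_mem ih.1 2, key _ ih.1 ih.2⟩
  obtain ⟨k, hk⟩ := h2R w hw
  have := (claim k).2
  rw [hk] at this
  exact this (one_pow 2)


/-- relative form of `exists_normal_proper` -/
theorem exists_normal_proper' {S : Type*} [Group S] {p : ℕ} [Fact p.Prime]
    (R H : Subgroup S) [Finite H] (hH : IsPGroup p ↥H) (hRH : R ≤ H) (hne : R ≠ H) :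
    ∃ M : Subgroup S, R ≤ M ∧ M ≤ H ∧ M ≠ H ∧ ∀ h ∈ H, ∀ m ∈ M, h * m * h⁻¹ ∈ M := by
  have hnil : Group.IsNilpotent ↥H := hH.isNilpotent
  have hnc : NormalizerCondition ↥H := Group.normalizerCondition_of_isNilpotent
  have hR' : R.subgroupOf H ≠ ⊤ := by
    intro h
    rw [subgroupOf_eq_top] at h
    exact hne (le_antisymm hRH h)
  rcases eq_top_or_exists_le_coatom (R.subgroupOf H) with h | ⟨M', hM', hRM'⟩
  · exact absurd h hR'
  have hnormal : M'.Normal := NormalizerCondition.normal_of_coatom M' hnc hM'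
  refine ⟨M'.map H.subtype, ?_, ?_, ?_, ?_⟩
  · intro r hr
    exact ⟨⟨r, hRH hr⟩, hRM' (mem_subgroupOf.mpr hr), rfl⟩
  · exact map_subtype_le M'
  · intro h
    apply hM'.1
    rw [eq_top_iff]
    intro x _
    have : (x : S) ∈ M'.map H.subtype := by rw [h]; exact x.2
    obtain ⟨y, hy, hyx⟩ := this
    have : y = x := Subtype.ext hyx
    rwa [← this]
  · rintro h hh _ ⟨m, hm, rfl⟩
    exact ⟨⟨h, hh⟩ * m * ⟨h, hh⟩⁻¹, hnormal.conj_mem m hm ⟨h, hh⟩, rfl⟩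

/-- Relative form of the theorem on invariant families of TI-subgroups of a 2-group: `H₀` is a
2-subgroup of the finite group `X`, `Δ` a family of subgroups invariant under `H₀`, of equal
orders, pairwise equal or disjoint, none of exponent two. Distinct members inside `H₀` commute. -/
theorem ti_family_commute {X : Type*} [Group X] [Finite X] (H₀ : Subgroup X)
    (hH₀ : IsPGroup 2 ↥H₀) (Δ : Set (Subgroup X))
    (hinv : ∀ s ∈ H₀, ∀ R ∈ Δ, R.map (MulAut.conj s).toMonoidHom ∈ Δ)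
    (hw : ∀ R ∈ Δ, ∃ w ∈ R, w ^ 2 ≠ 1) (hord : ∀ R ∈ Δ, ∀ T ∈ Δ, Nat.card ↥R = Nat.card ↥T)
    (hti : ∀ R ∈ Δ, ∀ T ∈ Δ, R = T ∨ R ⊓ T = ⊥) :
    ∀ R ∈ Δ, ∀ T ∈ Δ, R ≤ H₀ → T ≤ H₀ → R ≠ T → ⁅R, T⁆ = ⊥ := by
  have hp2 : Fact (Nat.Prime 2) := ⟨Nat.prime_two⟩
  have h2 : ∀ x ∈ H₀, ∃ k : ℕ, x ^ (2 ^ k) = 1 := by
    intro x hx
    obtain ⟨k, hk⟩ := hH₀ ⟨x, hx⟩
    exact ⟨k, congrArg Subtype.val hk⟩
  have key : ∀ n : ℕ, ∀ H : Subgroup X, H ≤ H₀ → Nat.card H = n → ∀ R ∈ Δ, ∀ T ∈ Δ, R ≤ H → T ≤ H →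
      R ≠ T → ⁅R, T⁆ = ⊥ := by
    intro n
    induction n using Nat.strong_induction_on with
    | _ n ih =>
      intro H hHH₀ hHn R hR T hT hRH hTH hne
      have good : ∀ R ∈ Δ, ∀ T ∈ Δ, R ≤ H → T ≤ H → R ≠ T → ∀ t ∈ T, GoodConj R t := by
        intro R hR T hT hRH hTH hne t ht
        by_cases htN : t ∈ normalizer (R : Set X)
        · left; exact htN
        right
        have hne' : R.map (MulAut.conj t).toMonoidHom ≠ R := by
          rwa [Ne, map_conj_eq_iff_mem_normalizer]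
        have hRt := hinv t (hHH₀ (hTH ht)) R hR
        have hRneH : R ≠ H := by
          rintro rfl
          have h1 := (hti R hR T hT).resolve_left hne
          have h2 : T = ⊥ := by rw [← h1]; exact (inf_eq_right.mpr hTH).symm
          obtain ⟨w, hwT, hw2⟩ := hw T hT
          rw [h2, mem_bot] at hwT
          exact hw2 (by rw [hwT, one_pow])
        obtain ⟨M, hRM, hMH, hMne, hMnorm⟩ :=
          exists_normal_proper' R H (hH₀.to_le hHH₀) hRH hRneH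
        have hcardM : Nat.card M < n := by
          by_contra hcon
          push Not at hcon
          rw [← hHn] at hcon
          exact hMne (eq_of_le_of_card_ge hMH hcon)
        have hRtM : R.map (MulAut.conj t).toMonoidHom ≤ M := by
          rintro _ ⟨a, ha, rfl⟩
          exact hMnorm t (hTH ht) a (hRM ha)
        have hcomm := ih _ hcardM M (hMH.trans hHH₀) rfl R hR _ hRt hRM hRtM hne'.symm
        have hdisj : R ⊓ R.map (MulAut.conj t).toMonoidHom = ⊥ :=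
          (hti R hR _ hRt).resolve_left hne'.symm
        constructor
        · intro a ha b hb
          rw [commutator_eq_bot_iff_le_centralizer] at hcomm
          exact ((mem_centralizer_iff.mp (hcomm ha)) _ (conj_mem_map_conj R t b hb)).symm
        · intro a ha h
          have : t * a * t⁻¹ ∈ R ⊓ R.map (MulAut.conj t).toMonoidHom :=
            mem_inf.mpr ⟨h, conj_mem_map_conj R t a ha⟩
          rw [hdisj, mem_bot] at this
          calc a = t⁻¹ * (t * a * t⁻¹) * t := by group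
            _ = 1 := by rw [this]; group
      have hRT : R ⊓ T = ⊥ := (hti R hR T hT).resolve_left hne
      have tiOf : ∀ A ∈ Δ, ∀ s ∈ H₀, A.map (MulAut.conj s).toMonoidHom = A ∨
          A.map (MulAut.conj s).toMonoidHom ⊓ A = ⊥ := fun A hA s hs => hti _ (hinv s hs A hA) A hA
      rcases ti_core R T (fun r hr => h2 r (hHH₀ (hRH hr))) (fun t ht => h2 t (hHH₀ (hTH ht)))
        (good R hR T hT hRH hTH hne) (good T hT R hR hTH hRH hne.symm) (hw R hR) with h | h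
      · exact commutator_eq_bot_of_le_normalizer R T (fun a ha => tiOf T hT a (hHH₀ (hRH ha)))
          (hord R hR T hT).le hRT h
      · rw [commutator_comm]
        exact commutator_eq_bot_of_le_normalizer T R (fun a ha => tiOf R hR a (hHH₀ (hTH ha)))
          (hord T hT R hR).le (by rw [inf_comm]; exact hRT) h
  intro R hR T hT hRH hTH hne
  exact key _ H₀ le_rfl rfl R hR T hT hRH hTH hne

end Cfsg.Agent.Lib.Helper36
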