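import Mathlib.GroupTheory.Index
import Mathlib.GroupTheory.QuotientGroup.Basic
import Mathlib.Algebra.Group.Subgroup.Finite
import Mathlib.Tactic.Group
import Mathlib.Data.Fintype.Lattice
import Mathlib.Data.SetLike.Fintype
import Cfsg.Agent.Lib.Helper36.TI

set_option autoImplicit false

namespace Cfsg.Agent.Lib.Helper36

open Subgroup

variable {G : Type*} [Group G]

/-- product of two elementwise commuting subgroups -/
def cprod (X Y : Subgroup G) (h : ∀ x ∈ X, ∀ y ∈ Y, x * y = y * x) : Subgroup G where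
  carrier := {z | ∃ x ∈ X, ∃ y ∈ Y, z = x * y}
  one_mem' := ⟨1, X.one_mem, 1, Y.one_mem, by simp⟩
  mul_mem' := by
    rintro _ _ ⟨x, hx, y, hy, rfl⟩ ⟨x', hx', y', hy', rfl⟩
    refine ⟨x * x', X.mul_mem hx hx', y * y', Y.mul_mem hy hy', ?_⟩
    calc x * y * (x' * y') = x * (y * x') * y' := by simp only [mul_assoc]
      _ = x * (x' * y) * y' := by rw [h x' hx' y hy]
      _ = x * x' * (y * y') := by simp only [mul_assoc]
  inv_mem' := by
    rintro _ ⟨x, hx, y, hy, rfl⟩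
    exact ⟨x⁻¹, X.inv_mem hx, y⁻¹, Y.inv_mem hy, by
      rw [mul_inv_rev, h x⁻¹ (X.inv_mem hx) y⁻¹ (Y.inv_mem hy)]⟩

theorem mem_cprod {X Y : Subgroup G} {h : ∀ x ∈ X, ∀ y ∈ Y, x * y = y * x} {z : G} :
    z ∈ cprod X Y h ↔ ∃ x ∈ X, ∃ y ∈ Y, z = x * y := Iff.rfl

theorem left_le_cprod (X Y : Subgroup G) (h : ∀ x ∈ X, ∀ y ∈ Y, x * y = y * x) :
    X ≤ cprod X Y h := fun x hx => ⟨x, hx, 1, Y.one_mem, by simp⟩

theorem right_le_cprod (X Y : Subgroup G) (h : ∀ x ∈ X, ∀ y ∈ Y, x * y = y * x) :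
    Y ≤ cprod X Y h := fun y hy => ⟨1, X.one_mem, y, hy, by simp⟩

theorem cprod_le {X Y Z : Subgroup G} {h : ∀ x ∈ X, ∀ y ∈ Y, x * y = y * x} (hX : X ≤ Z)
    (hY : Y ≤ Z) : cprod X Y h ≤ Z := by
  rintro _ ⟨x, hx, y, hy, rfl⟩
  exact Z.mul_mem (hX hx) (hY hy)

theorem cprod_comm {X Y : Subgroup G} {h : ∀ x ∈ X, ∀ y ∈ Y, x * y = y * x}
    (hX : ∀ x ∈ X, ∀ y ∈ X, x * y = y * x) (hY : ∀ x ∈ Y, ∀ y ∈ Y, x * y = y * x) :
    ∀ u ∈ cprod X Y h, ∀ v ∈ cprod X Y h, u * v = v * u := by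
  rintro _ ⟨x, hx, y, hy, rfl⟩ _ ⟨x', hx', y', hy', rfl⟩
  calc x * y * (x' * y') = x * (y * x') * y' := by simp only [mul_assoc]
    _ = x * (x' * y) * y' := by rw [h x' hx' y hy]
    _ = (x * x') * (y * y') := by simp only [mul_assoc]
    _ = (x' * x) * (y' * y) := by rw [hX x hx x' hx', hY y hy y' hy']
    _ = x' * (x * y') * y := by simp only [mul_assoc]
    _ = x' * (y' * x) * y := by rw [h x hx y' hy']
    _ = x' * y' * (x * y) := by simp only [mul_assoc]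

theorem card_mul_le_card_cprod [Finite G] {X Y : Subgroup G}
    {h : ∀ x ∈ X, ∀ y ∈ Y, x * y = y * x} (hd : ∀ x ∈ X, x ∈ Y → x = 1) :
    Nat.card X * Nat.card Y ≤ Nat.card (cprod X Y h) := by
  rw [← Nat.card_prod]
  refine Nat.card_le_card_of_injective
    (fun p : ↥X × ↥Y => (⟨p.1.1 * p.2.1, p.1.1, p.1.2, p.2.1, p.2.2, rfl⟩ : ↥(cprod X Y h))) ?_
  rintro ⟨⟨x, hx⟩, ⟨y, hy⟩⟩ ⟨⟨x', hx'⟩, ⟨y', hy'⟩⟩ he
  have he' : x * y = x' * y' := congrArg Subtype.val he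
  have h1 : x'⁻¹ * x = y' * y⁻¹ := by
    calc x'⁻¹ * x = x'⁻¹ * (x * y) * y⁻¹ := by group
      _ = x'⁻¹ * (x' * y') * y⁻¹ := by rw [he']
      _ = y' * y⁻¹ := by group
  have h2 : x'⁻¹ * x = 1 :=
    hd _ (X.mul_mem (X.inv_mem hx') hx) (h1 ▸ Y.mul_mem hy' (Y.inv_mem hy))
  have h3 : x = x' := by
    calc x = x' * (x'⁻¹ * x) := by group
      _ = x' := by rw [h2, mul_one]
  have h4 : y = y' := by
    rw [h3] at he'
    exact mul_left_cancel he'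
  subst h3 h4
  rfl

theorem comm_of_comm_eq_one {a b : G} (h : a * b * a⁻¹ * b⁻¹ = 1) : a * b = b * a := by
  calc a * b = (a * b * a⁻¹ * b⁻¹) * (b * a) := by group
    _ = b * a := by rw [h, one_mul]

theorem comm_eq_one_of_comm {a b : G} (h : a * b = b * a) : a * b * a⁻¹ * b⁻¹ = 1 := by
  rw [h]; group

theorem comm_inv_right {a b : G} (h : a * b = b * a) : a * b⁻¹ = b⁻¹ * a := by
  calc a * b⁻¹ = b⁻¹ * (b * a) * b⁻¹ := by group
    _ = b⁻¹ * (a * b) * b⁻¹ := by rw [h]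
    _ = b⁻¹ * a := by group

theorem comm_inv_left {a b : G} (h : a * b = b * a) : a⁻¹ * b = b * a⁻¹ :=
  (comm_inv_right h.symm).symm

/-- The abstract setting: `A` a TI elementary abelian 2-subgroup, `P = C_{O₂(N(A))}(A)`. -/
structure TG (A P : Subgroup G) : Prop where
  sqA : ∀ a ∈ A, a * a = 1
  AP : A ≤ P
  cA : ∀ p ∈ P, ∀ a ∈ A, p * a = a * p
  norm : ∀ m ∈ normalizer (A : Set G), ∀ p ∈ P, m * p * m⁻¹ ∈ P
  sq : ∀ p ∈ P, p * p ∈ A
  cen : ∀ x ∈ normalizer (A : Set G), (∀ p ∈ P, x * p = p * x) → x ∈ A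
  stab : ∀ h : G, (∀ a ∈ A, h * a = a * h) → (∀ p ∈ P, h * p * h⁻¹ * p⁻¹ ∈ A) → h ∈ P
  ti : ∀ x : G, ∀ a ∈ A, a ≠ 1 → x * a * x⁻¹ ∈ A → x ∈ normalizer (A : Set G)
  maxab : ∀ J : Subgroup G, A ≤ J → J ≤ P → (∀ x ∈ J, ∀ y ∈ J, x * y = y * x) →
    (∀ m ∈ normalizer (A : Set G), ∀ j ∈ J, m * j * m⁻¹ ∈ J) → J ≤ A

namespace TG

variable {A P : Subgroup G}

theorem invA (h : TG A P) {a : G} (ha : a ∈ A) : a⁻¹ = a := inv_eq_of_mul_eq_one_left (h.sqA a ha)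

theorem commA (h : TG A P) : ∀ a ∈ A, ∀ b ∈ A, a * b = b * a :=
  fun a ha b hb => h.cA a (h.AP ha) b hb

theorem mem_normalizer_of_cent (_h : TG A P) {x : G} (hx : ∀ a ∈ A, x * a = a * x) :
    x ∈ normalizer (A : Set G) := by
  rw [mem_normalizer_iff]
  intro a
  constructor
  · intro ha
    rw [hx a ha, mul_assoc, mul_inv_cancel, mul_one]; exact ha
  · intro ha
    have h1 := hx _ ha
    have h2 : x * a * x⁻¹ = a := by
      have : x * (x * a * x⁻¹) = x * a := by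
        rw [h1]; group
      exact mul_left_cancel this
    rw [← h2]; exact ha

theorem conj_mem (_h : TG A P) {m : G} (hm : m ∈ normalizer (A : Set G)) {a : G} (ha : a ∈ A) :
    m * a * m⁻¹ ∈ A := (mem_normalizer_iff.mp hm a).mp ha

theorem comm_mem (h : TG A P) : ∀ a ∈ P, ∀ b ∈ P, a * b * a⁻¹ * b⁻¹ ∈ A := by
  intro a ha b hb
  have h1 := h.sq (a * b) (P.mul_mem ha hb)
  have h2 := h.sq a⁻¹ (P.inv_mem ha)
  have h3 := h.sq b⁻¹ (P.inv_mem hb)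
  have h4 := h.cA b⁻¹ (P.inv_mem hb) _ h2
  have h5 : a * b * a⁻¹ * b⁻¹ = (a * b) * (a * b) * ((a⁻¹ * a⁻¹) * (b⁻¹ * b⁻¹)) := by
    calc a * b * a⁻¹ * b⁻¹ = (a * b) * (a * b) * ((b⁻¹ * (a⁻¹ * a⁻¹)) * b⁻¹) := by group
      _ = (a * b) * (a * b) * (((a⁻¹ * a⁻¹) * b⁻¹) * b⁻¹) := by rw [h4]
      _ = (a * b) * (a * b) * ((a⁻¹ * a⁻¹) * (b⁻¹ * b⁻¹)) := by group
  rw [h5]
  exact mul_mem h1 (mul_mem h2 h3)

/-- `x ↦ [x, b]` is multiplicative on `P`. -/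
theorem comm_mul_left (h : TG A P) {x y b : G} (hx : x ∈ P) (hy : y ∈ P) (hb : b ∈ P) :
    (x * y) * b * (x * y)⁻¹ * b⁻¹ = (x * b * x⁻¹ * b⁻¹) * (y * b * y⁻¹ * b⁻¹) := by
  have h1 := h.cA x hx _ (h.comm_mem y hy b hb)
  calc (x * y) * b * (x * y)⁻¹ * b⁻¹ = (x * (y * b * y⁻¹ * b⁻¹)) * b * x⁻¹ * b⁻¹ := by group
    _ = ((y * b * y⁻¹ * b⁻¹) * x) * b * x⁻¹ * b⁻¹ := by rw [h1]
    _ = (y * b * y⁻¹ * b⁻¹) * (x * b * x⁻¹ * b⁻¹) := by group
    _ = (x * b * x⁻¹ * b⁻¹) * (y * b * y⁻¹ * b⁻¹) :=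
      h.commA _ (h.comm_mem y hy b hb) _ (h.comm_mem x hx b hb)

/-- `b ↦ [x, b]` is multiplicative on `P`. -/
theorem comm_mul_right (h : TG A P) {x b c : G} (hx : x ∈ P) (hb : b ∈ P) (hc : c ∈ P) :
    x * (b * c) * x⁻¹ * (b * c)⁻¹ = (x * b * x⁻¹ * b⁻¹) * (x * c * x⁻¹ * c⁻¹) := by
  have h1 := h.cA b hb _ (h.comm_mem x hx c hc)
  calc x * (b * c) * x⁻¹ * (b * c)⁻¹
      = (x * b * x⁻¹ * b⁻¹) * (b * (x * c * x⁻¹ * c⁻¹)) * b⁻¹ := by group
    _ = (x * b * x⁻¹ * b⁻¹) * ((x * c * x⁻¹ * c⁻¹) * b) * b⁻¹ := by rw [h1]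
    _ = (x * b * x⁻¹ * b⁻¹) * (x * c * x⁻¹ * c⁻¹) := by group

end TG

/-- Two conjugate copies of the abstract setting. -/
structure TPair (A P B P' : Subgroup G) : Prop where
  tA : TG A P
  tB : TG B P'
  disj : ∀ x ∈ A, x ∈ B → x = 1
  card : Nat.card A = Nat.card B
  neA : ∃ a ∈ A, a ≠ 1
  neB : ∃ b ∈ B, b ≠ 1
  tiAB : ∀ w : G, ∀ a ∈ A, a ≠ 1 → w * a * w⁻¹ ∈ B →
    (∀ a' ∈ A, w * a' * w⁻¹ ∈ B) ∧ (∀ p ∈ P, w * p * w⁻¹ ∈ P')
  tiBA : ∀ w : G, ∀ b ∈ B, b ≠ 1 → w * b * w⁻¹ ∈ A →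
    (∀ b' ∈ B, w * b' * w⁻¹ ∈ A) ∧ (∀ p ∈ P', w * p * w⁻¹ ∈ P)

namespace TPair

variable {A P B P' : Subgroup G}

theorem symm (h : TPair A P B P') : TPair B P' A P :=
  ⟨h.tB, h.tA, fun x hx hx' => h.disj x hx' hx, h.card.symm, h.neB, h.neA, h.tiBA, h.tiAB⟩

/-- `C_P(b) = C_P(B)` for `1 ≠ b ∈ B`. -/
theorem cent_of_cent_one (h : TPair A P B P') (hBP : B ≤ P) {x b : G} (hx : x ∈ P) (hb : b ∈ B)
    (hb1 : b ≠ 1) (hxb : x * b = b * x) : ∀ b' ∈ B, x * b' = b' * x := by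
  have hxN : x ∈ normalizer (B : Set G) := by
    apply h.tB.ti x b hb hb1
    rw [hxb, mul_assoc, mul_inv_cancel, mul_one]; exact hb
  intro b' hb'
  apply comm_of_comm_eq_one
  apply h.disj _ (h.tA.comm_mem x hx b' (hBP hb'))
  exact B.mul_mem (h.tB.conj_mem hxN hb') (B.inv_mem hb')

/-- uniqueness of the decomposition in `A × B` -/
theorem decomp_unique (h : TPair A P B P') {a a' b b' : G} (ha : a ∈ A) (ha' : a' ∈ A)
    (hb : b ∈ B) (hb' : b' ∈ B) (he : a * b = a' * b') : a = a' ∧ b = b' := by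
  have h1 : a'⁻¹ * a = b' * b⁻¹ := by
    calc a'⁻¹ * a = a'⁻¹ * (a * b) * b⁻¹ := by group
      _ = a'⁻¹ * (a' * b') * b⁻¹ := by rw [he]
      _ = b' * b⁻¹ := by group
  have h2 : a'⁻¹ * a = 1 :=
    h.disj _ (A.mul_mem (A.inv_mem ha') ha) (h1 ▸ B.mul_mem hb' (B.inv_mem hb))
  have h3 : a = a' := by
    calc a = a' * (a'⁻¹ * a) := by group
      _ = a' := by rw [h2, mul_one]
  refine ⟨h3, ?_⟩
  rw [h3] at he
  exact mul_left_cancel he

/-- The Thompson order argument. -/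
theorem key [Finite G] (h : TPair A P B P') (hBP : B ≤ P) :
    (∀ b ∈ B, b ≠ 1 → ∀ a ∈ A, ∃ x ∈ P, x * b * x⁻¹ * b⁻¹ = a) ∧
    (∀ z ∈ P, (∀ r ∈ P, (∀ b ∈ B, r * b = b * r) → z * r = r * z) →
      ∃ a ∈ A, ∃ b ∈ B, z = a * b) := by
  classical
  obtain ⟨Ab, hAb⟩ : ∃ Ab : Subgroup G → Prop,
      ∀ X, Ab X ↔ (X ≤ P ∧ ∀ x ∈ X, ∀ y ∈ X, x * y = y * x) := ⟨_, fun _ => Iff.rfl⟩
  obtain ⟨E₀, hE₀, hmax⟩ : ∃ E₀, Ab E₀ ∧ ∀ X, Ab X → Nat.card X ≤ Nat.card E₀ := by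
    have : Nonempty {X : Subgroup G // Ab X} := ⟨⟨⊥, (hAb _).mpr ⟨bot_le, by
      intro x hx y hy
      rw [mem_bot] at hx hy
      rw [hx, hy]⟩⟩⟩
    obtain ⟨x₀, hx₀⟩ := Finite.exists_max (fun X : {X : Subgroup G // Ab X} => Nat.card X.1)
    exact ⟨x₀.1, x₀.2, fun X hX => hx₀ ⟨X, hX⟩⟩
  -- a maximal-order abelian subgroup is self-centralizing in `P`
  have mem_of_comm : ∀ E, Ab E → Nat.card E = Nat.card E₀ → ∀ z ∈ P, (∀ e ∈ E, e * z = z * e) →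
      z ∈ E := by
    intro E hE hcard z hz hcz
    have hc : ∀ x ∈ E, ∀ y ∈ zpowers z, x * y = y * x := by
      intro x hx y hy
      obtain ⟨i, rfl⟩ := mem_zpowers_iff.mp hy
      exact Commute.zpow_right (show Commute x z from hcz x hx) i
    have hX : Ab (cprod E (zpowers z) hc) := by
      rw [hAb]
      refine ⟨cprod_le ((hAb E).mp hE).1 ((zpowers_le).mpr hz), cprod_comm ((hAb E).mp hE).2 ?_⟩
      intro x hx y hy
      obtain ⟨i, rfl⟩ := mem_zpowers_iff.mp hx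
      obtain ⟨j, rfl⟩ := mem_zpowers_iff.mp hy
      exact Commute.zpow_zpow_self z i j
    have hle := hmax _ hX
    rw [← hcard] at hle
    have heq := Subgroup.eq_of_le_of_card_ge (left_le_cprod E (zpowers z) hc) hle
    rw [heq]
    exact right_le_cprod E (zpowers z) hc (mem_zpowers z)
  -- conjugation invariance
  have hconj : ∀ E, Ab E → Nat.card E = Nat.card E₀ → ∀ m ∈ normalizer (A : Set G),
      Ab (E.map (MulAut.conj m).toMonoidHom) ∧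
        Nat.card (E.map (MulAut.conj m).toMonoidHom) = Nat.card E₀ := by
    intro E hE hcard m hm
    refine ⟨(hAb _).mpr ⟨?_, ?_⟩, ?_⟩
    · rintro _ ⟨e, he, rfl⟩
      exact h.tA.norm m hm e (((hAb E).mp hE).1 he)
    · rintro _ ⟨e, he, rfl⟩ _ ⟨e', he', rfl⟩
      have := ((hAb E).mp hE).2 e he e' he'
      simp only [MulEquiv.coe_toMonoidHom, ← map_mul, this]
    · rw [Subgroup.card_map_of_injective (MulAut.conj m).injective, hcard]
  -- some maximal-order abelian subgroup does not contain `B`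
  obtain ⟨E, hE, hEcard, hBE⟩ : ∃ E, Ab E ∧ Nat.card E = Nat.card E₀ ∧ ¬ B ≤ E := by
    by_contra hcon
    push Not at hcon
    obtain ⟨J, hJ⟩ : ∃ J : Subgroup G, J = sInf {E | Ab E ∧ Nat.card E = Nat.card E₀} := ⟨_, rfl⟩
    have hJmem : ∀ x, x ∈ J ↔ ∀ E, Ab E → Nat.card E = Nat.card E₀ → x ∈ E := by
      intro x
      rw [hJ, mem_sInf]
      exact ⟨fun hx E h1 h2 => hx E ⟨h1, h2⟩, fun hx E hE => hx E hE.1 hE.2⟩
    have hJE₀ : J ≤ E₀ := fun x hx => (hJmem x).mp hx E₀ hE₀ rfl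
    have hJA : J ≤ A := by
      apply h.tA.maxab J
      · intro a ha
        rw [hJmem]
        intro E hE hc
        exact mem_of_comm E hE hc a (h.tA.AP ha)
          (fun e he => h.tA.cA e (((hAb E).mp hE).1 he) a ha)
      · exact hJE₀.trans ((hAb E₀).mp hE₀).1
      · intro x hx y hy
        exact ((hAb E₀).mp hE₀).2 x (hJE₀ hx) y (hJE₀ hy)
      · intro m hm j hj
        rw [hJmem]
        intro E hE hc
        obtain ⟨h1, h2⟩ := hconj E hE hc m⁻¹ (inv_mem hm)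
        have := (hJmem j).mp hj _ h1 h2
        rw [mem_map_conj] at this
        simpa using this
    obtain ⟨b, hb, hb1⟩ := h.neB
    apply hb1
    apply h.disj b _ hb
    apply hJA
    rw [hJmem]
    intro E hE hc
    exact hcon E hE hc hb
  have hEP := ((hAb E).mp hE).1
  have hEab := ((hAb E).mp hE).2
  have hBab : ∀ x ∈ B, ∀ y ∈ B, x * y = y * x := h.tB.commA
  -- `E ∩ B = 1`
  have hEB : ∀ x ∈ E, x ∈ B → x = 1 := by
    intro x hx hxB
    by_contra hx1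
    apply hBE
    intro b' hb'
    apply mem_of_comm E hE hEcard b' (hBP hb')
    intro e he
    exact h.cent_of_cent_one hBP (hEP he) hxB hx1 (hEab e he x hx) b' hb'
  -- `E₁ = C_E(B)`
  obtain ⟨E₁, hE₁⟩ : ∃ E₁ : Subgroup G, E₁ = E ⊓ centralizer (B : Set G) := ⟨_, rfl⟩
  have hE₁mem : ∀ x, x ∈ E₁ ↔ x ∈ E ∧ ∀ b ∈ B, x * b = b * x := by
    intro x
    rw [hE₁, mem_inf, mem_centralizer_iff]
    exact ⟨fun hx => ⟨hx.1, fun b hb => (hx.2 b hb).symm⟩,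
      fun hx => ⟨hx.1, fun b hb => (hx.2 b hb).symm⟩⟩
  have hc1 : ∀ x ∈ E₁, ∀ y ∈ B, x * y = y * x := fun x hx y hy => ((hE₁mem x).mp hx).2 y hy
  have hE₁E : E₁ ≤ E := fun x hx => ((hE₁mem x).mp hx).1
  have hEs : Ab (cprod E₁ B hc1) := by
    rw [hAb]
    exact ⟨cprod_le (hE₁E.trans hEP) hBP,
      cprod_comm (fun x hx y hy => hEab x (hE₁E hx) y (hE₁E hy)) hBab⟩
  have hcard1 : Nat.card E₁ * Nat.card B ≤ Nat.card (cprod E₁ B hc1) :=
    card_mul_le_card_cprod (fun x hx hxB => hEB x (hE₁E hx) hxB)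
  have hcard2 : Nat.card (cprod E₁ B hc1) ≤ Nat.card E := by
    rw [hEcard]; exact hmax _ hEs
  -- the commutator homomorphisms
  have hsurjE : ∀ b ∈ B, b ≠ 1 → ∀ a ∈ A, ∃ x ∈ E, x * b * x⁻¹ * b⁻¹ = a := by
    intro b hb hb1
    let f : ↥E →* ↥A := MonoidHom.mk'
      (fun e => ⟨e.1 * b * e.1⁻¹ * b⁻¹, h.tA.comm_mem e.1 (hEP e.2) b (hBP hb)⟩)
      (fun x y => Subtype.ext (h.tA.comm_mul_left (hEP x.2) (hEP y.2) (hBP hb)))
    have hf : ∀ e : ↥E, (f e).1 = e.1 * b * e.1⁻¹ * b⁻¹ := fun _ => rfl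
    have hker : Nat.card f.ker ≤ Nat.card E₁ := by
      refine Nat.card_le_card_of_injective
        (fun x : ↥f.ker => (⟨x.1.1, (hE₁mem _).mpr ⟨x.1.2, ?_⟩⟩ : ↥E₁)) ?_
      · have h1 : f x.1 = 1 := x.2
        have h2 : x.1.1 * b * x.1.1⁻¹ * b⁻¹ = 1 := by
          rw [← hf, h1]; rfl
        exact h.cent_of_cent_one hBP (hEP x.1.2) hb hb1 (comm_of_comm_eq_one h2)
      · intro x y hxy
        apply Subtype.ext
        apply Subtype.ext
        exact congrArg (fun t : ↥E₁ => t.1) hxy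
    have h3 : Nat.card f.ker * Nat.card f.range = Nat.card E := by
      rw [← Subgroup.index_ker]; exact Subgroup.card_mul_index _
    have h4 : Nat.card E₁ * Nat.card A ≤ Nat.card E₁ * Nat.card f.range := by
      calc Nat.card E₁ * Nat.card A = Nat.card E₁ * Nat.card B := by rw [h.card]
        _ ≤ Nat.card E := hcard1.trans hcard2
        _ = Nat.card f.ker * Nat.card f.range := h3.symm
        _ ≤ Nat.card E₁ * Nat.card f.range := Nat.mul_le_mul_right _ hker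
    have h5 : Nat.card A ≤ Nat.card f.range := Nat.le_of_mul_le_mul_left h4 Nat.card_pos
    have h6 : f.range = ⊤ := Subgroup.eq_top_of_le_card _ h5
    intro a ha
    have : (⟨a, ha⟩ : ↥A) ∈ f.range := by rw [h6]; exact mem_top _
    obtain ⟨e, he⟩ := this
    exact ⟨e.1, e.2, by rw [← hf, he]⟩
  refine ⟨fun b hb hb1 a ha => ?_, ?_⟩
  · obtain ⟨x, hx, hxa⟩ := hsurjE b hb hb1 a ha
    exact ⟨x, hEP hx, hxa⟩
  -- the second statement
  obtain ⟨b₀, hb₀, hb₀1⟩ := h.neB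
  have hcard3 : Nat.card (cprod E₁ B hc1) = Nat.card E₀ := by
    apply le_antisymm (hmax _ hEs)
    rw [← hEcard]
    -- `|E| ≤ |E₁| |A|`
    let f : ↥E →* ↥A := MonoidHom.mk'
      (fun e => ⟨e.1 * b₀ * e.1⁻¹ * b₀⁻¹, h.tA.comm_mem e.1 (hEP e.2) b₀ (hBP hb₀)⟩)
      (fun x y => Subtype.ext (h.tA.comm_mul_left (hEP x.2) (hEP y.2) (hBP hb₀)))
    have hf : ∀ e : ↥E, (f e).1 = e.1 * b₀ * e.1⁻¹ * b₀⁻¹ := fun _ => rfl
    have hker : Nat.card f.ker ≤ Nat.card E₁ := by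
      refine Nat.card_le_card_of_injective
        (fun x : ↥f.ker => (⟨x.1.1, (hE₁mem _).mpr ⟨x.1.2, ?_⟩⟩ : ↥E₁)) ?_
      · have h1 : f x.1 = 1 := x.2
        have h2 : x.1.1 * b₀ * x.1.1⁻¹ * b₀⁻¹ = 1 := by
          rw [← hf, h1]; rfl
        exact h.cent_of_cent_one hBP (hEP x.1.2) hb₀ hb₀1 (comm_of_comm_eq_one h2)
      · intro x y hxy
        apply Subtype.ext
        apply Subtype.ext
        exact congrArg (fun t : ↥E₁ => t.1) hxy
    have h3 : Nat.card f.ker * Nat.card f.range = Nat.card E := by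
      rw [← Subgroup.index_ker]; exact Subgroup.card_mul_index _
    calc Nat.card E = Nat.card f.ker * Nat.card f.range := h3.symm
      _ ≤ Nat.card E₁ * Nat.card A :=
        Nat.mul_le_mul hker (Subgroup.card_le_card_group _)
      _ = Nat.card E₁ * Nat.card B := by rw [h.card]
      _ ≤ _ := hcard1
  intro z hz hzR
  have hzE : z ∈ cprod E₁ B hc1 := by
    apply mem_of_comm _ hEs hcard3 z hz
    rintro _ ⟨e, he, b, hb, rfl⟩
    refine (hzR (e * b) (P.mul_mem (hEP (hE₁E he)) (hBP hb)) ?_).symm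
    intro b' hb'
    calc e * b * b' = e * (b * b') := mul_assoc _ _ _
      _ = e * (b' * b) := by rw [hBab b hb b' hb']
      _ = (e * b') * b := (mul_assoc _ _ _).symm
      _ = (b' * e) * b := by rw [hc1 e he b' hb']
      _ = b' * (e * b) := mul_assoc _ _ _
  obtain ⟨e, he, b, hb, rfl⟩ := hzE
  refine ⟨e, ?_, b, hb, rfl⟩
  have heP : e ∈ P := hEP (hE₁E he)
  apply h.tA.cen e (h.tA.mem_normalizer_of_cent (fun a ha => h.tA.cA e heP a ha))
  intro p hp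
  -- `p = e' r`
  obtain ⟨e', he', hee'⟩ := hsurjE b₀ hb₀ hb₀1 _ (h.tA.comm_mem p hp b₀ (hBP hb₀))
  have hr : (e'⁻¹ * p) * b₀ = b₀ * (e'⁻¹ * p) := by
    have h1 : e' * b₀ * e'⁻¹ = p * b₀ * p⁻¹ := by
      calc e' * b₀ * e'⁻¹ = (e' * b₀ * e'⁻¹ * b₀⁻¹) * b₀ := by group
        _ = (p * b₀ * p⁻¹ * b₀⁻¹) * b₀ := by rw [hee']
        _ = p * b₀ * p⁻¹ := by group
    calc e'⁻¹ * p * b₀ = e'⁻¹ * (p * b₀ * p⁻¹) * p := by group
      _ = e'⁻¹ * (e' * b₀ * e'⁻¹) * p := by rw [h1]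
      _ = b₀ * (e'⁻¹ * p) := by group
  have hrP : e'⁻¹ * p ∈ P := P.mul_mem (P.inv_mem (hEP he')) hp
  have hrB := h.cent_of_cent_one hBP hrP hb₀ hb₀1 hr
  have h1 : (e * b) * (e'⁻¹ * p) = (e'⁻¹ * p) * (e * b) := hzR _ hrP hrB
  have h2 : e * (e'⁻¹ * p) = (e'⁻¹ * p) * e := by
    have h3 := hrB b hb
    have : e * (e'⁻¹ * p) * b = (e'⁻¹ * p) * e * b := by
      calc e * (e'⁻¹ * p) * b = e * ((e'⁻¹ * p) * b) := mul_assoc _ _ _
        _ = e * (b * (e'⁻¹ * p)) := by rw [h3]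
        _ = (e * b) * (e'⁻¹ * p) := (mul_assoc _ _ _).symm
        _ = (e'⁻¹ * p) * (e * b) := h1
        _ = (e'⁻¹ * p) * e * b := (mul_assoc _ _ _).symm
    exact mul_right_cancel this
  have h3 : e * e' = e' * e := hEab e (hE₁E he) e' he'
  calc e * p = e * e' * (e'⁻¹ * p) := by group
    _ = e' * e * (e'⁻¹ * p) := by rw [h3]
    _ = e' * (e * (e'⁻¹ * p)) := mul_assoc _ _ _
    _ = e' * ((e'⁻¹ * p) * e) := by rw [h2]
    _ = p * e := by group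

/-- for `x ∈ P` not centralizing `B`, `b ↦ [x, b]` is onto `A` -/
theorem surj_right [Finite G] (h : TPair A P B P') (hBP : B ≤ P) {x : G} (hx : x ∈ P)
    (hne : ∃ b ∈ B, x * b * x⁻¹ * b⁻¹ ≠ 1) : ∀ a ∈ A, ∃ b ∈ B, x * b * x⁻¹ * b⁻¹ = a := by
  let f : ↥B → ↥A := fun b => ⟨x * b.1 * x⁻¹ * b.1⁻¹, h.tA.comm_mem x hx b.1 (hBP b.2)⟩
  have hinj : Function.Injective f := by
    intro b b' hbb
    have h1 : x * b.1 * x⁻¹ * b.1⁻¹ = x * b'.1 * x⁻¹ * b'.1⁻¹ := congrArg Subtype.val hbb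
    by_contra hne'
    have h2 : b'.1⁻¹ * b.1 ≠ 1 := by
      intro h3
      apply hne'
      apply Subtype.ext
      calc b.1 = b'.1 * (b'.1⁻¹ * b.1) := by group
        _ = b'.1 := by rw [h3, mul_one]
    have h3 : x * (b'.1⁻¹ * b.1) = (b'.1⁻¹ * b.1) * x := by
      have h4 : x * b.1 * x⁻¹ = (x * b'.1 * x⁻¹) * (b'.1⁻¹ * b.1) := by
        calc x * b.1 * x⁻¹ = (x * b.1 * x⁻¹ * b.1⁻¹) * b.1 := by group
          _ = (x * b'.1 * x⁻¹ * b'.1⁻¹) * b.1 := by rw [h1]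
          _ = (x * b'.1 * x⁻¹) * (b'.1⁻¹ * b.1) := by group
      calc x * (b'.1⁻¹ * b.1) = (x * b'.1 * x⁻¹)⁻¹ * (x * b.1 * x⁻¹) * x := by group
        _ = (x * b'.1 * x⁻¹)⁻¹ * ((x * b'.1 * x⁻¹) * (b'.1⁻¹ * b.1)) * x := by rw [h4]
        _ = (b'.1⁻¹ * b.1) * x := by group
    obtain ⟨b₁, hb₁, hb₁x⟩ := hne
    apply hb₁x
    exact comm_eq_one_of_comm
      (h.cent_of_cent_one hBP hx (B.mul_mem (B.inv_mem b'.2) b.2) h2 h3 b₁ hb₁)
  have hbij := hinj.bijective_of_nat_card_le (le_of_eq h.card)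
  intro a ha
  obtain ⟨b, hb⟩ := hbij.2 ⟨a, ha⟩
  exact ⟨b.1, b.2, congrArg Subtype.val hb⟩

theorem comm_id1 (r x : G) :
    (r * r) * (r * x * r⁻¹ * x⁻¹) * (r * r)⁻¹ * (r * x * r⁻¹ * x⁻¹)⁻¹ =
      (r * ((r * r) * x * (r * r)⁻¹ * x⁻¹) * r⁻¹ * ((r * r) * x * (r * r)⁻¹ * x⁻¹)⁻¹) *
        (((r * r) * x * (r * r)⁻¹ * x⁻¹) * (r * x * r⁻¹ * x⁻¹) *
          ((r * r) * x * (r * r)⁻¹ * x⁻¹)⁻¹ * (r * x * r⁻¹ * x⁻¹)⁻¹) := by
  simp only [mul_assoc, mul_inv_rev, inv_inv, inv_mul_cancel_left, mul_inv_cancel_left]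

theorem comm_id2 (r x : G) :
    (r * r) * x * (r * r)⁻¹ * x⁻¹ =
      (r * (r * x * r⁻¹ * x⁻¹) * r⁻¹ * (r * x * r⁻¹ * x⁻¹)⁻¹) *
        ((r * x * r⁻¹ * x⁻¹) * (r * x * r⁻¹ * x⁻¹)) := by
  simp only [mul_assoc, mul_inv_rev, inv_inv, inv_mul_cancel_left, mul_inv_cancel_left]

/-- **Part (a).**  If `B ≤ P` then `A ≤ P'`. -/
theorem le_of_le [Finite G] (h : TPair A P B P') (hBP : B ≤ P) : A ≤ P' := by
  obtain ⟨p1, p2⟩ := h.key hBP
  have hAB : ∀ a ∈ A, ∀ b ∈ B, a * b = b * a := fun a ha b hb => (h.tA.cA b (hBP hb) a ha).symm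
  have hAN : ∀ a ∈ A, a ∈ normalizer (B : Set G) :=
    fun a ha => h.tB.mem_normalizer_of_cent (hAB a ha)
  by_cases hH : ∃ y ∈ P', ∃ a ∈ A, a * y * a⁻¹ * y⁻¹ ∈ B ∧ a * y * a⁻¹ * y⁻¹ ≠ 1
  · obtain ⟨y, hy, a, ha, hbB, hb1⟩ := hH
    obtain ⟨b, hb⟩ : ∃ b, b = a * y * a⁻¹ * y⁻¹ := ⟨_, rfl⟩
    rw [← hb] at hbB hb1
    have hainv := h.tA.invA ha
    have ha1 : a ≠ 1 := by
      intro h1
      apply hb1
      rw [hb, h1]; group
    have hya : y * a * y⁻¹ = a * b := by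
      have : y * a⁻¹ * y⁻¹ = a⁻¹ * b := by rw [hb]; group
      rwa [hainv] at this
    obtain ⟨x, hx, hxb⟩ := p1 b hbB hb1 a ha
    have hxb' : x * b * x⁻¹ = a * b := by
      calc x * b * x⁻¹ = (x * b * x⁻¹ * b⁻¹) * b := by group
        _ = a * b := by rw [hxb]
    have hw : (x⁻¹ * y) * a * (x⁻¹ * y)⁻¹ = b := by
      calc (x⁻¹ * y) * a * (x⁻¹ * y)⁻¹ = x⁻¹ * (y * a * y⁻¹) * x := by group
        _ = x⁻¹ * (x * b * x⁻¹) * x := by rw [hya, hxb']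
        _ = b := by group
    obtain ⟨-, hwP⟩ := h.tiAB (x⁻¹ * y) a ha ha1 (hw ▸ hbB)
    have hxB : ∀ b' ∈ B, x⁻¹ * b' * x⁻¹⁻¹ * b'⁻¹ ∈ P' := by
      intro b' hb'
      have h1 := hwP b' (hBP hb')
      have h2 : (x⁻¹ * y) * b' * (x⁻¹ * y)⁻¹ = x⁻¹ * b' * x⁻¹⁻¹ := by
        calc (x⁻¹ * y) * b' * (x⁻¹ * y)⁻¹ = x⁻¹ * (y * b') * y⁻¹ * x := by group
          _ = x⁻¹ * (b' * y) * y⁻¹ * x := by rw [h.tB.cA y hy b' hb']
          _ = x⁻¹ * b' * x⁻¹⁻¹ := by group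
      rw [h2] at h1
      exact P'.mul_mem h1 (P'.inv_mem (h.tB.AP hb'))
    have hne : ∃ b' ∈ B, x⁻¹ * b' * x⁻¹⁻¹ * b'⁻¹ ≠ 1 := by
      refine ⟨b, hbB, fun h1 => ha1 ?_⟩
      have h2 : x⁻¹ * b = b * x⁻¹ := comm_of_comm_eq_one h1
      have h3 : x * b = b * x := by
        have := comm_inv_left h2
        rwa [inv_inv] at this
      rw [← hxb]
      exact comm_eq_one_of_comm h3
    intro a' ha'
    obtain ⟨b', hb', hb'a⟩ := h.surj_right hBP (P.inv_mem hx) hne a' ha'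
    rw [← hb'a]
    exact hxB b' hb'
  · push Not at hH
    have hAP' : ∀ a ∈ A, a ∈ P' → a = 1 := by
      intro a ha haP'
      apply h.disj a ha
      apply h.tB.cen a (hAN a ha)
      intro y hy
      exact comm_of_comm_eq_one (hH y hy a ha (h.tB.comm_mem a haP' y hy))
    have hI : ∀ x ∈ P, x ∈ P' → x ∈ B := by
      intro x hx hx'
      obtain ⟨a, ha, b, hb, hxab⟩ := p2 x hx (by
        intro r hr hrB
        apply comm_of_comm_eq_one
        apply hAP' _ (h.tA.comm_mem x hx r hr)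
        have h1 := h.tB.norm r (h.tB.mem_normalizer_of_cent hrB) x⁻¹ (P'.inv_mem hx')
        have h2 : x * r * x⁻¹ * r⁻¹ = x * (r * x⁻¹ * r⁻¹) := by group
        rw [h2]; exact P'.mul_mem hx' h1)
      have ha1 : a = 1 := by
        apply hAP' a ha
        have : a = x * b⁻¹ := by rw [hxab]; group
        rw [this]; exact P'.mul_mem hx' (P'.inv_mem (h.tB.AP hb))
      rw [hxab, ha1, one_mul]; exact hb
    have hcentA : ∀ y ∈ P', ∀ a ∈ A, a ≠ 1 → y * a = a * y → ∀ a' ∈ A, y * a' = a' * y := by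
      intro y hy a ha ha1 hya a' ha'
      have hyN : y ∈ normalizer (A : Set G) := by
        apply h.tA.ti y a ha ha1
        rw [hya, mul_assoc, mul_inv_cancel, mul_one]; exact ha
      apply comm_of_comm_eq_one
      apply hAP' _ (A.mul_mem (h.tA.conj_mem hyN ha') (A.inv_mem ha'))
      have h1 := h.tB.norm a' (hAN a' ha') y⁻¹ (P'.inv_mem hy)
      have h2 : y * a' * y⁻¹ * a'⁻¹ = y * (a' * y⁻¹ * a'⁻¹) := by group
      rw [h2]; exact P'.mul_mem hy h1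
    have hRD : ∀ r ∈ P, (∀ b ∈ B, r * b = b * r) → ∀ d ∈ P', (∀ a ∈ A, d * a = a * d) →
        r * d * r⁻¹ * d⁻¹ ∈ B := by
      intro r hr hrB d hd hdA
      apply hI
      · have h1 := h.tA.norm d (h.tA.mem_normalizer_of_cent hdA) r⁻¹ (P.inv_mem hr)
        have h2 : r * d * r⁻¹ * d⁻¹ = r * (d * r⁻¹ * d⁻¹) := by group
        rw [h2]; exact P.mul_mem hr h1
      · exact P'.mul_mem (h.tB.norm r (h.tB.mem_normalizer_of_cent hrB) d hd) (P'.inv_mem hd)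
    have hU : ∀ a ∈ A, ∀ x ∈ P', a * x * a⁻¹ * x⁻¹ ∈ P' ∧
        ∀ a' ∈ A, (a * x * a⁻¹ * x⁻¹) * a' = a' * (a * x * a⁻¹ * x⁻¹) := by
      intro a ha x hx
      have hu : a * x * a⁻¹ * x⁻¹ ∈ P' :=
        P'.mul_mem (h.tB.norm a (hAN a ha) x hx) (P'.inv_mem hx)
      refine ⟨hu, ?_⟩
      by_cases ha1 : a = 1
      · intro a' _
        have : a * x * a⁻¹ * x⁻¹ = 1 := by rw [ha1]; group
        rw [this, one_mul, mul_one]
      · apply hcentA _ hu a ha ha1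
        have hainv := h.tA.invA ha
        have hau : a * (a * x * a⁻¹ * x⁻¹) * a⁻¹ = (a * x * a⁻¹ * x⁻¹)⁻¹ := by
          calc a * (a * x * a⁻¹ * x⁻¹) * a⁻¹ = (a * a) * x * a⁻¹ * x⁻¹ * a⁻¹ := by group
            _ = x * a⁻¹ * x⁻¹ * a⁻¹ := by rw [h.tA.sqA a ha, one_mul]
            _ = x * a * x⁻¹ * a⁻¹ := by rw [hainv]
            _ = (a * x * a⁻¹ * x⁻¹)⁻¹ := by group
        have h1 : a * (a * x * a⁻¹ * x⁻¹) * a⁻¹ * (a * x * a⁻¹ * x⁻¹)⁻¹ ∈ B := by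
          rw [hau, ← mul_inv_rev]
          exact B.inv_mem (h.tB.sq _ hu)
        exact (comm_of_comm_eq_one (hH _ hu a ha h1)).symm
    have hfinal : ∀ a ∈ A, ∀ x ∈ P', a * x * a⁻¹ * x⁻¹ ∈ B := by
      by_cases hA : ∃ r₀ ∈ P, (∀ b ∈ B, r₀ * b = b * r₀) ∧ r₀ * r₀ ≠ 1
      · exfalso
        obtain ⟨r₀, hr₀, hr₀B, hr₀1⟩ := hA
        have ha₀ : r₀ * r₀ ∈ A := h.tA.sq r₀ hr₀
        have hr₀N := h.tB.mem_normalizer_of_cent hr₀B
        apply hr₀1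
        apply h.disj _ ha₀
        apply h.tB.cen _ (hAN _ ha₀)
        intro x hx
        obtain ⟨hu, huA⟩ := hU _ ha₀ x hx
        have hv : r₀ * x * r₀⁻¹ * x⁻¹ ∈ P' :=
          P'.mul_mem (h.tB.norm r₀ hr₀N x hx) (P'.inv_mem hx)
        have hvA : ∀ a' ∈ A, (r₀ * x * r₀⁻¹ * x⁻¹) * a' = a' * (r₀ * x * r₀⁻¹ * x⁻¹) := by
          apply hcentA _ hv _ ha₀ hr₀1
          have h1 : (r₀ * r₀) * (r₀ * x * r₀⁻¹ * x⁻¹) * (r₀ * r₀)⁻¹ * (r₀ * x * r₀⁻¹ * x⁻¹)⁻¹ ∈ B := by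
            rw [comm_id1]
            exact B.mul_mem (hRD r₀ hr₀ hr₀B _ hu huA) (h.tB.comm_mem _ hu _ hv)
          exact (comm_of_comm_eq_one (hH _ hv _ ha₀ h1)).symm
        have h2 : (r₀ * r₀) * x * (r₀ * r₀)⁻¹ * x⁻¹ ∈ B := by
          rw [comm_id2]
          exact B.mul_mem (hRD r₀ hr₀ hr₀B _ hv hvA) (h.tB.sq _ hv)
        exact comm_of_comm_eq_one (hH x hx _ ha₀ h2)
      · push Not at hA
        have hRab : ∀ r ∈ P, (∀ b ∈ B, r * b = b * r) → ∀ s ∈ P, (∀ b ∈ B, s * b = b * s) →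
            r * s = s * r := by
          intro r hr hrB s hs hsB
          have hrs : ∀ b ∈ B, (r * s) * b = b * (r * s) := by
            intro b hb
            calc r * s * b = r * (s * b) := mul_assoc _ _ _
              _ = r * (b * s) := by rw [hsB b hb]
              _ = (r * b) * s := (mul_assoc _ _ _).symm
              _ = (b * r) * s := by rw [hrB b hb]
              _ = b * (r * s) := mul_assoc _ _ _
          have h1 := hA _ (P.mul_mem hr hs) hrs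
          have h2 := hA r hr hrB
          have h3 := hA s hs hsB
          calc r * s = r * ((r * s) * (r * s)) * s := by rw [h1, mul_one]
            _ = (r * r) * (s * r) * (s * s) := by simp only [mul_assoc]
            _ = s * r := by rw [h2, h3, one_mul, mul_one]
        have hRW : ∀ r ∈ P, (∀ b ∈ B, r * b = b * r) → ∃ a ∈ A, ∃ b ∈ B, r = a * b :=
          fun r hr hrB => p2 r hr (fun s hs hsB => hRab r hr hrB s hs hsB)
        have hDP : ∀ d ∈ P', (∀ a ∈ A, d * a = a * d) → d ∈ P := by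
          intro d hd hdA
          have hdB : ∀ b ∈ B, d * b = b * d := h.tB.cA d hd
          have hdN := h.tA.mem_normalizer_of_cent hdA
          have hdW : ∀ a ∈ A, ∀ b ∈ B, d * (a * b) = (a * b) * d := by
            intro a ha b hb
            calc d * (a * b) = (d * a) * b := (mul_assoc _ _ _).symm
              _ = (a * d) * b := by rw [hdA a ha]
              _ = a * (d * b) := mul_assoc _ _ _
              _ = a * (b * d) := by rw [hdB b hb]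
              _ = (a * b) * d := (mul_assoc _ _ _).symm
          apply h.tA.stab d hdA
          intro x hx
          obtain ⟨c, hc⟩ : ∃ c, c = d * x * d⁻¹ * x⁻¹ := ⟨_, rfl⟩
          rw [← hc]
          have hcP : c ∈ P := by
            rw [hc]; exact P.mul_mem (h.tA.norm d hdN x hx) (P.inv_mem hx)
          have hcB : ∀ b ∈ B, c * b = b * c := by
            intro b hb
            have h1 : d * (x⁻¹ * b * x) = (x⁻¹ * b * x) * d := by
              have h2 : x⁻¹ * b * x = (x⁻¹ * b * x⁻¹⁻¹ * b⁻¹) * b := by group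
              rw [h2]
              exact hdW _ (h.tA.comm_mem _ (P.inv_mem hx) b (hBP hb)) b hb
            have h3 : d⁻¹ * (x⁻¹ * b * x) * d = x⁻¹ * b * x := by
              calc d⁻¹ * (x⁻¹ * b * x) * d = d⁻¹ * ((x⁻¹ * b * x) * d) := mul_assoc _ _ _
                _ = d⁻¹ * (d * (x⁻¹ * b * x)) := by rw [h1]
                _ = x⁻¹ * b * x := by group
            have h4 : c * b * c⁻¹ = b := by
              rw [hc]
              calc d * x * d⁻¹ * x⁻¹ * b * (d * x * d⁻¹ * x⁻¹)⁻¹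
                  = d * (x * (d⁻¹ * (x⁻¹ * b * x) * d) * x⁻¹) * d⁻¹ := by group
                _ = d * (x * (x⁻¹ * b * x) * x⁻¹) * d⁻¹ := by rw [h3]
                _ = (d * b) * d⁻¹ := by group
                _ = (b * d) * d⁻¹ := by rw [hdB b hb]
                _ = b := by group
            calc c * b = (c * b * c⁻¹) * c := by group
              _ = b * c := by rw [h4]
          obtain ⟨a₁, ha₁, b₁, hb₁, hcab⟩ := hRW c hcP hcB
          have hk2 : c * (x * c * x⁻¹) = 1 := by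
            have hdxx := hdA _ (h.tA.sq x hx)
            rw [hc]
            calc d * x * d⁻¹ * x⁻¹ * (x * (d * x * d⁻¹ * x⁻¹) * x⁻¹)
                = (d * (x * x)) * d⁻¹ * x⁻¹ * x⁻¹ := by
                  simp only [mul_assoc, inv_mul_cancel_left]
              _ = ((x * x) * d) * d⁻¹ * x⁻¹ * x⁻¹ := by rw [hdxx]
              _ = 1 := by simp [mul_assoc]
          have hk1 : c * (x * c * x⁻¹) = x * b₁ * x⁻¹ * b₁⁻¹ := by
            have hxa : x * a₁ = a₁ * x := h.tA.cA x hx a₁ ha₁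
            have hq := h.tA.comm_mem x hx b₁ (hBP hb₁)
            have e1 : x * b₁ * x⁻¹ = (x * b₁ * x⁻¹ * b₁⁻¹) * b₁ := by group
            have e2 : b₁ * (x * b₁ * x⁻¹ * b₁⁻¹) = (x * b₁ * x⁻¹ * b₁⁻¹) * b₁ :=
              (hAB _ hq b₁ hb₁).symm
            have e3 : b₁ * a₁ = a₁ * b₁ := (hAB a₁ ha₁ b₁ hb₁).symm
            rw [hcab]
            calc a₁ * b₁ * (x * (a₁ * b₁) * x⁻¹) = a₁ * b₁ * ((x * a₁) * b₁ * x⁻¹) := by group
              _ = a₁ * b₁ * ((a₁ * x) * b₁ * x⁻¹) := by rw [hxa]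
              _ = a₁ * (b₁ * a₁) * (x * b₁ * x⁻¹) := by group
              _ = a₁ * (a₁ * b₁) * ((x * b₁ * x⁻¹ * b₁⁻¹) * b₁) := by rw [e3, ← e1]
              _ = (a₁ * a₁) * (b₁ * (x * b₁ * x⁻¹ * b₁⁻¹)) * b₁ := by simp only [mul_assoc]
              _ = (a₁ * a₁) * ((x * b₁ * x⁻¹ * b₁⁻¹) * b₁) * b₁ := by rw [e2]
              _ = (a₁ * a₁) * (x * b₁ * x⁻¹ * b₁⁻¹) * (b₁ * b₁) := by simp only [mul_assoc]
              _ = x * b₁ * x⁻¹ * b₁⁻¹ := by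
                rw [h.tA.sqA a₁ ha₁, h.tB.sqA b₁ hb₁, one_mul, mul_one]
          rw [hk2] at hk1
          by_cases hb₁1 : b₁ = 1
          · rw [hcab, hb₁1, mul_one]; exact ha₁
          · have hxB := h.cent_of_cent_one hBP hx hb₁ hb₁1 (comm_of_comm_eq_one hk1.symm)
            obtain ⟨a₂, ha₂, b₂, hb₂, hxab⟩ := hRW x hx hxB
            have : d * x = x * d := by rw [hxab]; exact hdW a₂ ha₂ b₂ hb₂
            rw [hc, comm_eq_one_of_comm this]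
            exact A.one_mem
        intro a ha x hx
        obtain ⟨hu, huA⟩ := hU a ha x hx
        exact hI _ (hDP _ hu huA) hu
    intro a ha
    exact h.tB.stab a (hAB a ha) (hfinal a ha)

end TPair

end Cfsg.Agent.Lib.Helper36
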