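import Cfsg.Agent.Lib.Helper36.TimA
import Cfsg.Agent.Lib.Helper36.FieldCoord
import Cfsg.Agent.Lib.Helper36.SL2Quot

set_option autoImplicit false

namespace Cfsg.Agent.Lib.Helper36

open Subgroup

variable {G : Type*} [Group G]

/-- The data needed to recognise `SL₂`. -/
structure SLData (A B P P' : Subgroup G) : Prop where
  sqA : ∀ a ∈ A, a * a = 1
  sqB : ∀ b ∈ B, b * b = 1
  commA : ∀ a ∈ A, ∀ a' ∈ A, a * a' = a' * a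
  commB : ∀ b ∈ B, ∀ b' ∈ B, b * b' = b' * b
  commAB : ∀ a ∈ A, ∀ b ∈ B, a * b = b * a
  disj : ∀ x ∈ A, x ∈ B → x = 1
  cPA : ∀ x ∈ P, ∀ a ∈ A, x * a = a * x
  cPB : ∀ y ∈ P', ∀ b ∈ B, y * b = b * y
  phi_mem : ∀ x ∈ P, ∀ b ∈ B, x * b * x⁻¹ * b⁻¹ ∈ A
  psi_mem : ∀ y ∈ P', ∀ a ∈ A, y * a * y⁻¹ * a⁻¹ ∈ B
  invP : ∀ x ∈ P, (∃ b ∈ B, x * b * x⁻¹ * b⁻¹ ≠ 1) → ∃ y ∈ P',
    (∀ a ∈ A, x * (y * a * y⁻¹ * a⁻¹) * x⁻¹ * (y * a * y⁻¹ * a⁻¹)⁻¹ = a) ∧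
    (∀ b ∈ B, y * (x * b * x⁻¹ * b⁻¹) * y⁻¹ * (x * b * x⁻¹ * b⁻¹)⁻¹ = b)
  invP' : ∀ y ∈ P', (∃ a ∈ A, y * a * y⁻¹ * a⁻¹ ≠ 1) → ∃ x ∈ P,
    (∀ a ∈ A, x * (y * a * y⁻¹ * a⁻¹) * x⁻¹ * (y * a * y⁻¹ * a⁻¹)⁻¹ = a) ∧
    (∀ b ∈ B, y * (x * b * x⁻¹ * b⁻¹) * y⁻¹ * (x * b * x⁻¹ * b⁻¹)⁻¹ = b)
  trans : ∀ b ∈ B, b ≠ 1 → ∀ a ∈ A, ∃ x ∈ P, x * b * x⁻¹ * b⁻¹ = a
  neA : ∃ a ∈ A, a ≠ 1
  neB : ∃ b ∈ B, b ≠ 1

namespace TPair

variable {A P B P' : Subgroup G}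

theorem inv_exists [Finite G] (h : TPair A P B P') (hBP : B ≤ P) (hAP' : A ≤ P') :
    ∀ x ∈ P, (∃ b ∈ B, x * b * x⁻¹ * b⁻¹ ≠ 1) → ∃ y ∈ P',
    (∀ a ∈ A, x * (y * a * y⁻¹ * a⁻¹) * x⁻¹ * (y * a * y⁻¹ * a⁻¹)⁻¹ = a) ∧
    (∀ b ∈ B, y * (x * b * x⁻¹ * b⁻¹) * y⁻¹ * (x * b * x⁻¹ * b⁻¹)⁻¹ = b) := by
  rintro x hx ⟨b₁, hb₁, hxb₁⟩
  have hAB : ∀ a ∈ A, ∀ b ∈ B, a * b = b * a := fun a ha b hb => (h.tA.cA b (hBP hb) a ha).symm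
  obtain ⟨a₁, ha₁def⟩ : ∃ a₁, a₁ = x * b₁ * x⁻¹ * b₁⁻¹ := ⟨_, rfl⟩
  rw [← ha₁def] at hxb₁
  have ha₁ : a₁ ∈ A := by rw [ha₁def]; exact h.tA.comm_mem x hx b₁ (hBP hb₁)
  have hb₁1 : b₁ ≠ 1 := by
    intro h1
    apply hxb₁
    rw [ha₁def, h1]; group
  obtain ⟨y, hy, hya⟩ := (h.symm.key hAP').1 a₁ ha₁ hxb₁ b₁ hb₁
  have e1 : y * a₁ * y⁻¹ = b₁ * a₁ := by
    calc y * a₁ * y⁻¹ = (y * a₁ * y⁻¹ * a₁⁻¹) * a₁ := by group
      _ = b₁ * a₁ := by rw [hya]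
  have e2 : x * b₁ * x⁻¹ = b₁ * a₁ := by
    calc x * b₁ * x⁻¹ = (x * b₁ * x⁻¹ * b₁⁻¹) * b₁ := by group
      _ = a₁ * b₁ := by rw [← ha₁def]
      _ = b₁ * a₁ := hAB a₁ ha₁ b₁ hb₁
  have hw : (x⁻¹ * y) * a₁ * (x⁻¹ * y)⁻¹ = b₁ := by
    calc (x⁻¹ * y) * a₁ * (x⁻¹ * y)⁻¹ = x⁻¹ * (y * a₁ * y⁻¹) * x := by group
      _ = x⁻¹ * (x * b₁ * x⁻¹) * x := by rw [e1, e2]
      _ = b₁ := by group
  have hw' : (y⁻¹ * x) * b₁ * (y⁻¹ * x)⁻¹ = a₁ := by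
    calc (y⁻¹ * x) * b₁ * (y⁻¹ * x)⁻¹ = y⁻¹ * (x * b₁ * x⁻¹) * y := by group
      _ = y⁻¹ * (y * a₁ * y⁻¹) * y := by rw [e1, e2]
      _ = a₁ := by group
  obtain ⟨hwA, -⟩ := h.tiAB _ a₁ ha₁ hxb₁ (hw ▸ hb₁)
  obtain ⟨hwB, -⟩ := h.tiBA _ b₁ hb₁ hb₁1 (hw' ▸ ha₁)
  refine ⟨y, hy, ?_, ?_⟩
  · intro a ha
    obtain ⟨b, hbdef⟩ : ∃ b, b = (x⁻¹ * y) * a * (x⁻¹ * y)⁻¹ := ⟨_, rfl⟩
    have hb : b ∈ B := by rw [hbdef]; exact hwA a ha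
    have h1 : x * b * x⁻¹ = y * a * y⁻¹ := by rw [hbdef]; group
    have hq : y * a * y⁻¹ * a⁻¹ ∈ B := h.tB.comm_mem y hy a (hAP' ha)
    have h2 : (x * b * x⁻¹ * b⁻¹) * b = a * (y * a * y⁻¹ * a⁻¹) := by
      rw [hAB a ha _ hq]
      calc (x * b * x⁻¹ * b⁻¹) * b = x * b * x⁻¹ := by group
        _ = y * a * y⁻¹ := h1
        _ = (y * a * y⁻¹ * a⁻¹) * a := by group
    obtain ⟨h3, h4⟩ := h.decomp_unique (h.tA.comm_mem x hx b (hBP hb)) ha hb hq h2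
    rw [← h4]; exact h3
  · intro b hb
    obtain ⟨a, hadef⟩ : ∃ a, a = (y⁻¹ * x) * b * (y⁻¹ * x)⁻¹ := ⟨_, rfl⟩
    have ha : a ∈ A := by rw [hadef]; exact hwB b hb
    have h1 : y * a * y⁻¹ = x * b * x⁻¹ := by rw [hadef]; group
    have hq : y * a * y⁻¹ * a⁻¹ ∈ B := h.tB.comm_mem y hy a (hAP' ha)
    have h2 : (x * b * x⁻¹ * b⁻¹) * b = a * (y * a * y⁻¹ * a⁻¹) := by
      rw [hAB a ha _ hq]
      calc (x * b * x⁻¹ * b⁻¹) * b = x * b * x⁻¹ := by group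
        _ = y * a * y⁻¹ := h1.symm
        _ = (y * a * y⁻¹ * a⁻¹) * a := by group
    obtain ⟨h3, h4⟩ := h.decomp_unique (h.tA.comm_mem x hx b (hBP hb)) ha hb hq h2
    rw [h3, ← h4]

theorem slData [Finite G] (h : TPair A P B P') (hBP : B ≤ P) (hAP' : A ≤ P') :
    SLData A B P P' where
  sqA := h.tA.sqA
  sqB := h.tB.sqA
  commA := h.tA.commA
  commB := h.tB.commA
  commAB := fun a ha b hb => (h.tA.cA b (hBP hb) a ha).symm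
  disj := h.disj
  cPA := h.tA.cA
  cPB := h.tB.cA
  phi_mem := fun x hx b hb => h.tA.comm_mem x hx b (hBP hb)
  psi_mem := fun y hy a ha => h.tB.comm_mem y hy a (hAP' ha)
  invP := h.inv_exists hBP hAP'
  invP' := by
    intro y hy hne
    obtain ⟨x, hx, h1, h2⟩ := h.symm.inv_exists hAP' hBP y hy hne
    exact ⟨x, hx, h2, h1⟩
  trans := (h.key hBP).1
  neA := h.neA
  neB := h.neB

/-- any two non-identity elements of `A` are conjugate -/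
theorem exists_conj [Finite G] (h : TPair A P B P') (hBP : B ≤ P) (hAP' : A ≤ P') :
    ∀ a ∈ A, a ≠ 1 → ∀ a' ∈ A, a' ≠ 1 → ∃ g : G, g * a * g⁻¹ = a' := by
  obtain ⟨b, hb, hb1⟩ := h.neB
  have hAB : ∀ a ∈ A, ∀ b ∈ B, a * b = b * a := fun a ha b hb => (h.tA.cA b (hBP hb) a ha).symm
  have key : ∀ a ∈ A, a ≠ 1 → ∃ g : G, g * a * g⁻¹ = b := by
    intro a ha ha1
    obtain ⟨y, hy, hya⟩ := (h.symm.key hAP').1 a ha ha1 b hb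
    obtain ⟨x, hx, hxb⟩ := (h.key hBP).1 b hb hb1 a ha
    refine ⟨x * y, ?_⟩
    have e1 : y * a * y⁻¹ = b * a := by
      calc y * a * y⁻¹ = (y * a * y⁻¹ * a⁻¹) * a := by group
        _ = b * a := by rw [hya]
    have e2 : x * b * x⁻¹ = a * b := by
      calc x * b * x⁻¹ = (x * b * x⁻¹ * b⁻¹) * b := by group
        _ = a * b := by rw [hxb]
    have e3 : x * a * x⁻¹ = a := by rw [h.tA.cA x hx a ha]; group
    calc x * y * a * (x * y)⁻¹ = x * (y * a * y⁻¹) * x⁻¹ := by group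
      _ = x * (b * a) * x⁻¹ := by rw [e1]
      _ = (x * b * x⁻¹) * (x * a * x⁻¹) := by group
      _ = (a * b) * a := by rw [e2, e3]
      _ = (b * a) * a := by rw [hAB a ha b hb]
      _ = b * (a * a) := mul_assoc _ _ _
      _ = b := by rw [h.tA.sqA a ha, mul_one]
  intro a ha ha1 a' ha' ha'1
  obtain ⟨g, hg⟩ := key a ha ha1
  obtain ⟨g', hg'⟩ := key a' ha' ha'1
  refine ⟨g'⁻¹ * g, ?_⟩
  calc g'⁻¹ * g * a * (g'⁻¹ * g)⁻¹ = g'⁻¹ * (g * a * g⁻¹) * g' := by group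
    _ = g'⁻¹ * (g' * a' * g'⁻¹) * g' := by rw [hg, hg']
    _ = a' := by group

end TPair

namespace SLData

variable {A B P P' : Subgroup G}

theorem phi_mul_right (h : SLData A B P P') {x b c : G} (hx : x ∈ P) (hb : b ∈ B) (hc : c ∈ B) :
    x * (b * c) * x⁻¹ * (b * c)⁻¹ = (x * b * x⁻¹ * b⁻¹) * (x * c * x⁻¹ * c⁻¹) := by
  have h1 := (h.commAB _ (h.phi_mem x hx c hc) b hb).symm
  calc x * (b * c) * x⁻¹ * (b * c)⁻¹
      = (x * b * x⁻¹ * b⁻¹) * (b * (x * c * x⁻¹ * c⁻¹)) * b⁻¹ := by group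
    _ = (x * b * x⁻¹ * b⁻¹) * ((x * c * x⁻¹ * c⁻¹) * b) * b⁻¹ := by rw [h1]
    _ = (x * b * x⁻¹ * b⁻¹) * (x * c * x⁻¹ * c⁻¹) := by group

theorem phi_mul_left (h : SLData A B P P') {x y b : G} (hx : x ∈ P) (hy : y ∈ P) (hb : b ∈ B) :
    (x * y) * b * (x * y)⁻¹ * b⁻¹ = (x * b * x⁻¹ * b⁻¹) * (y * b * y⁻¹ * b⁻¹) := by
  have h1 := h.cPA x hx _ (h.phi_mem y hy b hb)
  calc (x * y) * b * (x * y)⁻¹ * b⁻¹ = (x * (y * b * y⁻¹ * b⁻¹)) * b * x⁻¹ * b⁻¹ := by group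
    _ = ((y * b * y⁻¹ * b⁻¹) * x) * b * x⁻¹ * b⁻¹ := by rw [h1]
    _ = (y * b * y⁻¹ * b⁻¹) * (x * b * x⁻¹ * b⁻¹) := by group
    _ = (x * b * x⁻¹ * b⁻¹) * (y * b * y⁻¹ * b⁻¹) :=
      h.commA _ (h.phi_mem y hy b hb) _ (h.phi_mem x hx b hb)

theorem psi_mul_right (h : SLData A B P P') {x b c : G} (hx : x ∈ P') (hb : b ∈ A) (hc : c ∈ A) :
    x * (b * c) * x⁻¹ * (b * c)⁻¹ = (x * b * x⁻¹ * b⁻¹) * (x * c * x⁻¹ * c⁻¹) := by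
  have h1 := h.commAB b hb _ (h.psi_mem x hx c hc)
  calc x * (b * c) * x⁻¹ * (b * c)⁻¹
      = (x * b * x⁻¹ * b⁻¹) * (b * (x * c * x⁻¹ * c⁻¹)) * b⁻¹ := by group
    _ = (x * b * x⁻¹ * b⁻¹) * ((x * c * x⁻¹ * c⁻¹) * b) * b⁻¹ := by rw [h1]
    _ = (x * b * x⁻¹ * b⁻¹) * (x * c * x⁻¹ * c⁻¹) := by group

theorem psi_mul_left (h : SLData A B P P') {x y b : G} (hx : x ∈ P') (hy : y ∈ P') (hb : b ∈ A) :
    (x * y) * b * (x * y)⁻¹ * b⁻¹ = (x * b * x⁻¹ * b⁻¹) * (y * b * y⁻¹ * b⁻¹) := by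
  have h1 := h.cPB x hx _ (h.psi_mem y hy b hb)
  calc (x * y) * b * (x * y)⁻¹ * b⁻¹ = (x * (y * b * y⁻¹ * b⁻¹)) * b * x⁻¹ * b⁻¹ := by group
    _ = ((y * b * y⁻¹ * b⁻¹) * x) * b * x⁻¹ * b⁻¹ := by rw [h1]
    _ = (y * b * y⁻¹ * b⁻¹) * (x * b * x⁻¹ * b⁻¹) := by group
    _ = (x * b * x⁻¹ * b⁻¹) * (y * b * y⁻¹ * b⁻¹) :=
      h.commB _ (h.psi_mem y hy b hb) _ (h.psi_mem x hx b hb)

/-- coordinates over a finite field -/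
theorem coords [Finite G] (h : SLData A B P P') :
    ∃ (F : Type) (_ : Field F) (_ : Fintype F) (αA αB : F → G),
      Fintype.card F = Nat.card A ∧
      (∀ t, αA t ∈ A) ∧ (∀ a ∈ A, ∃ t, αA t = a) ∧ Function.Injective αA ∧
      (∀ s t, αA (s + t) = αA s * αA t) ∧
      (∀ t, αB t ∈ B) ∧ (∀ b ∈ B, ∃ t, αB t = b) ∧ Function.Injective αB ∧
      (∀ s t, αB (s + t) = αB s * αB t) ∧
      (∀ x ∈ P, ∃ c : F, ∀ t, x * αB t * x⁻¹ * (αB t)⁻¹ = αA (c * t)) ∧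
      (∀ c : F, ∃ x ∈ P, ∀ t, x * αB t * x⁻¹ * (αB t)⁻¹ = αA (c * t)) ∧
      (∀ y ∈ P', ∃ c : F, ∀ t, y * αA t * y⁻¹ * (αA t)⁻¹ = αB (c * t)) ∧
      (∀ c : F, ∃ y ∈ P', ∀ t, y * αA t * y⁻¹ * (αA t)⁻¹ = αB (c * t)) := by
  let iA : CommGroup ↥A :=
    { (inferInstance : Group ↥A) with
      mul_comm := fun a b => Subtype.ext (h.commA a.1 a.2 b.1 b.2) }
  let iB : CommGroup ↥B :=
    { (inferInstance : Group ↥B) with
      mul_comm := fun a b => Subtype.ext (h.commB a.1 a.2 b.1 b.2) }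
  let vA : Additive ↥A → G := fun a => (Additive.toMul a).1
  let vB : Additive ↥B → G := fun b => (Additive.toMul b).1
  have vA_mem : ∀ a, vA a ∈ A := fun a => (Additive.toMul a).2
  have vB_mem : ∀ b, vB b ∈ B := fun b => (Additive.toMul b).2
  have vA_inj : Function.Injective vA := fun a a' haa => Additive.toMul.injective (Subtype.ext haa)
  have vB_inj : Function.Injective vB := fun a a' haa => Additive.toMul.injective (Subtype.ext haa)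
  have vA_add : ∀ a a', vA (a + a') = vA a * vA a' := fun _ _ => rfl
  have vB_add : ∀ a a', vB (a + a') = vB a * vB a' := fun _ _ => rfl
  have vA_zero : vA 0 = 1 := rfl
  have vB_zero : vB 0 = 1 := rfl
  have vA_neg : ∀ a, vA (-a) = (vA a)⁻¹ := fun _ => rfl
  have vB_neg : ∀ a, vB (-a) = (vB a)⁻¹ := fun _ => rfl
  have vA_surj : ∀ a ∈ A, ∃ t, vA t = a := fun a ha => ⟨Additive.ofMul ⟨a, ha⟩, rfl⟩
  have vB_surj : ∀ a ∈ B, ∃ t, vB t = a := fun a ha => ⟨Additive.ofMul ⟨a, ha⟩, rfl⟩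
  obtain ⟨phi, hphi⟩ : ∃ phi : (x : G) → x ∈ P → (Additive ↥B →+ Additive ↥A),
      ∀ x hx b, vA (phi x hx b) = x * vB b * x⁻¹ * (vB b)⁻¹ :=
    ⟨fun x hx => AddMonoidHom.mk'
      (fun b => Additive.ofMul ⟨x * vB b * x⁻¹ * (vB b)⁻¹, h.phi_mem x hx _ (vB_mem b)⟩)
      (fun b b' => vA_inj (h.phi_mul_right hx (vB_mem b) (vB_mem b'))), fun _ _ _ => rfl⟩
  obtain ⟨psi, hpsi⟩ : ∃ psi : (y : G) → y ∈ P' → (Additive ↥A →+ Additive ↥B),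
      ∀ y hy a, vB (psi y hy a) = y * vA a * y⁻¹ * (vA a)⁻¹ :=
    ⟨fun y hy => AddMonoidHom.mk'
      (fun a => Additive.ofMul ⟨y * vA a * y⁻¹ * (vA a)⁻¹, h.psi_mem y hy _ (vA_mem a)⟩)
      (fun b b' => vB_inj (h.psi_mul_right hy (vA_mem b) (vA_mem b'))), fun _ _ _ => rfl⟩
  let Φ : AddSubgroup (Additive ↥B →+ Additive ↥A) :=
    { carrier := {f | ∃ x, ∃ hx : x ∈ P, f = phi x hx}
      zero_mem' := ⟨1, P.one_mem, by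
        refine AddMonoidHom.ext fun b => ?_
        apply vA_inj
        rw [hphi]
        simp [vA_zero]⟩
      add_mem' := by
        rintro _ _ ⟨x, hx, rfl⟩ ⟨x', hx', rfl⟩
        refine ⟨x * x', P.mul_mem hx hx', ?_⟩
        refine AddMonoidHom.ext fun b => ?_
        apply vA_inj
        rw [AddMonoidHom.add_apply, vA_add, hphi x hx, hphi x' hx', hphi (x * x') (P.mul_mem hx hx')]
        exact (h.phi_mul_left hx hx' (vB_mem b)).symm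
      neg_mem' := by
        rintro _ ⟨x, hx, rfl⟩
        refine ⟨x, hx, ?_⟩
        refine AddMonoidHom.ext fun b => ?_
        apply vA_inj
        rw [AddMonoidHom.neg_apply, vA_neg, hphi]
        exact inv_eq_of_mul_eq_one_left (h.sqA _ (h.phi_mem x hx _ (vB_mem b))) }
  let Ψ : AddSubgroup (Additive ↥A →+ Additive ↥B) :=
    { carrier := {f | ∃ x, ∃ hx : x ∈ P', f = psi x hx}
      zero_mem' := ⟨1, P'.one_mem, by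
        refine AddMonoidHom.ext fun b => ?_
        apply vB_inj
        rw [hpsi]
        simp [vB_zero]⟩
      add_mem' := by
        rintro _ _ ⟨x, hx, rfl⟩ ⟨x', hx', rfl⟩
        refine ⟨x * x', P'.mul_mem hx hx', ?_⟩
        refine AddMonoidHom.ext fun b => ?_
        apply vB_inj
        rw [AddMonoidHom.add_apply, vB_add, hpsi x hx, hpsi x' hx', hpsi (x * x') (P'.mul_mem hx hx')]
        exact (h.psi_mul_left hx hx' (vA_mem b)).symm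
      neg_mem' := by
        rintro _ ⟨x, hx, rfl⟩
        refine ⟨x, hx, ?_⟩
        refine AddMonoidHom.ext fun b => ?_
        apply vB_inj
        rw [AddMonoidHom.neg_apply, vB_neg, hpsi]
        exact inv_eq_of_mul_eq_one_left (h.sqB _ (h.psi_mem x hx _ (vA_mem b))) }
  have hΦmem : ∀ f, f ∈ Φ ↔ ∃ x, ∃ hx : x ∈ P, f = phi x hx := fun _ => Iff.rfl
  have hΨmem : ∀ f, f ∈ Ψ ↔ ∃ x, ∃ hx : x ∈ P', f = psi x hx := fun _ => Iff.rfl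
  have : Nontrivial (Additive ↥A) := by
    obtain ⟨a, ha, ha1⟩ := h.neA
    exact ⟨⟨Additive.ofMul ⟨a, ha⟩, 0, fun h0 => ha1 (congrArg vA h0)⟩⟩
  have : Nontrivial (Additive ↥B) := by
    obtain ⟨a, ha, ha1⟩ := h.neB
    exact ⟨⟨Additive.ofMul ⟨a, ha⟩, 0, fun h0 => ha1 (congrArg vB h0)⟩⟩
  have h2 : ∀ a : Additive ↥A, a + a = 0 := fun a => vA_inj (h.sqA _ (vA_mem a))
  have hΦ : ∀ φ ∈ Φ, φ ≠ 0 → ∃ ψ ∈ Ψ, (∀ a, φ (ψ a) = a) ∧ (∀ b, ψ (φ b) = b) := by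
    rintro _ ⟨x, hx, rfl⟩ hne
    have hne' : ∃ b ∈ B, x * b * x⁻¹ * b⁻¹ ≠ 1 := by
      by_contra hcon
      push Not at hcon
      apply hne
      refine AddMonoidHom.ext fun b => ?_
      apply vA_inj
      rw [hphi]
      exact hcon _ (vB_mem b)
    obtain ⟨y, hy, h1, h2⟩ := h.invP x hx hne'
    refine ⟨psi y hy, ⟨y, hy, rfl⟩, fun a => vA_inj ?_, fun b => vB_inj ?_⟩
    · rw [hphi, hpsi]; exact h1 _ (vA_mem a)
    · rw [hpsi, hphi]; exact h2 _ (vB_mem b)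
  have hΨ : ∀ ψ ∈ Ψ, ψ ≠ 0 → ∃ φ ∈ Φ, (∀ a, φ (ψ a) = a) ∧ (∀ b, ψ (φ b) = b) := by
    rintro _ ⟨y, hy, rfl⟩ hne
    have hne' : ∃ a ∈ A, y * a * y⁻¹ * a⁻¹ ≠ 1 := by
      by_contra hcon
      push Not at hcon
      apply hne
      refine AddMonoidHom.ext fun b => ?_
      apply vB_inj
      rw [hpsi]
      exact hcon _ (vA_mem b)
    obtain ⟨x, hx, h1, h2⟩ := h.invP' y hy hne'
    refine ⟨phi x hx, ⟨x, hx, rfl⟩, fun a => vA_inj ?_, fun b => vB_inj ?_⟩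
    · rw [hphi, hpsi]; exact h1 _ (vA_mem a)
    · rw [hpsi, hphi]; exact h2 _ (vB_mem b)
  have htr : ∀ b : Additive ↥B, b ≠ 0 → ∀ a : Additive ↥A, ∃ φ ∈ Φ, φ b = a := by
    intro b hb a
    obtain ⟨x, hx, hxa⟩ := h.trans (vB b) (vB_mem b) (fun h0 => hb (vB_inj h0)) (vA a) (vA_mem a)
    exact ⟨phi x hx, ⟨x, hx, rfl⟩, vA_inj ((hphi x hx b).trans hxa)⟩
  obtain ⟨F, iF, iFt, κA, κB, c1, c2, c3, c4⟩ := exists_field_coord h2 Φ Ψ hΦ hΨ htr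
  refine ⟨F, iF, iFt, fun t => vA (κA t), fun t => vB (κB t), ?_, fun t => vA_mem _, ?_,
    vA_inj.comp κA.injective, fun s t => by beta_reduce; rw [map_add, vA_add], fun t => vB_mem _, ?_,
    vB_inj.comp κB.injective, fun s t => by beta_reduce; rw [map_add, vB_add], ?_, ?_, ?_, ?_⟩
  · rw [← Nat.card_eq_fintype_card]
    exact Nat.card_congr (κA.toEquiv.trans Additive.toMul)
  · intro a ha
    obtain ⟨t, ht⟩ := vA_surj a ha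
    exact ⟨κA.symm t, by simp [ht]⟩
  · intro a ha
    obtain ⟨t, ht⟩ := vB_surj a ha
    exact ⟨κB.symm t, by simp [ht]⟩
  · intro x hx
    obtain ⟨c, hc⟩ := c1 (phi x hx) ⟨x, hx, rfl⟩
    exact ⟨c, fun t => by beta_reduce; rw [← hc, hphi]⟩
  · intro c
    obtain ⟨_, ⟨x, hx, rfl⟩, hc⟩ := c2 c
    exact ⟨x, hx, fun t => by beta_reduce; rw [← hc, hphi]⟩
  · intro y hy
    obtain ⟨c, hc⟩ := c3 (psi y hy) ⟨y, hy, rfl⟩
    exact ⟨c, fun t => by beta_reduce; rw [← hc, hpsi]⟩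
  · intro c
    obtain ⟨_, ⟨y, hy, rfl⟩, hc⟩ := c4 c
    exact ⟨y, hy, fun t => by beta_reduce; rw [← hc, hpsi]⟩

theorem sl2 [Finite G] (h : SLData A B P P')
    (hN : ((centralizer ((A ⊔ B : Subgroup G) : Set G)).subgroupOf (P ⊔ P')).Normal) :
    ∃ (F : Type) (_ : Field F) (_ : Fintype F), Fintype.card F = Nat.card ↥A ∧
      Nonempty (↥(P ⊔ P') ⧸ (centralizer ((A ⊔ B : Subgroup G) : Set G)).subgroupOf (P ⊔ P') ≃*
        Matrix.SpecialLinearGroup (Fin 2) F) := by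
  obtain ⟨F, iF, iFt, αA, αB, hcard, hAm, hAs, hAi, hAa, hBm, hBs, hBi, hBa, c1, c2, c3, c4⟩ :=
    h.coords
  refine ⟨F, iF, iFt, hcard, ?_⟩
  obtain ⟨π, hπ⟩ : ∃ π : (Fin 2 → F) → G, ∀ v, π v = αA (v 0) * αB (v 1) := ⟨_, fun _ => rfl⟩
  have hinj : Function.Injective π := by
    intro v v' hvv
    rw [hπ, hπ] at hvv
    have h1 : (αA (v' 0))⁻¹ * αA (v 0) = αB (v' 1) * (αB (v 1))⁻¹ := by
      calc (αA (v' 0))⁻¹ * αA (v 0) = (αA (v' 0))⁻¹ * (αA (v 0) * αB (v 1)) * (αB (v 1))⁻¹ := by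
            group
        _ = (αA (v' 0))⁻¹ * (αA (v' 0) * αB (v' 1)) * (αB (v 1))⁻¹ := by rw [hvv]
        _ = αB (v' 1) * (αB (v 1))⁻¹ := by group
    have h2 : (αA (v' 0))⁻¹ * αA (v 0) = 1 :=
      h.disj _ (A.mul_mem (A.inv_mem (hAm _)) (hAm _))
        (h1 ▸ B.mul_mem (hBm _) (B.inv_mem (hBm _)))
    have h3 : αA (v 0) = αA (v' 0) := by
      calc αA (v 0) = αA (v' 0) * ((αA (v' 0))⁻¹ * αA (v 0)) := by group
        _ = αA (v' 0) := by rw [h2, mul_one]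
    have h4 : αB (v 1) = αB (v' 1) := by
      rw [h3] at hvv
      exact mul_left_cancel hvv
    funext i
    fin_cases i
    · exact hAi h3
    · exact hBi h4
  have hW : ∀ w, w ∈ A ⊔ B ↔ ∃ v, π v = w := by
    intro w
    constructor
    · intro hw
      have hle : A ⊔ B ≤ cprod A B h.commAB :=
        sup_le (left_le_cprod A B h.commAB) (right_le_cprod A B h.commAB)
      obtain ⟨a, ha, b, hb, rfl⟩ := hle hw
      obtain ⟨s, rfl⟩ := hAs a ha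
      obtain ⟨t, rfl⟩ := hBs b hb
      exact ⟨![s, t], by rw [hπ]; simp⟩
    · rintro ⟨v, rfl⟩
      rw [hπ]
      exact mul_mem (mem_sup_left (hAm _)) (mem_sup_right (hBm _))
  have actP : ∀ x ∈ P, ∀ c : F, (∀ t, x * αB t * x⁻¹ * (αB t)⁻¹ = αA (c * t)) →
      ∀ v, x * π v * x⁻¹ = π ![v 0 + c * v 1, v 1] := by
    intro x hx c hc v
    rw [hπ, hπ]
    simp only [Matrix.cons_val_zero, Matrix.cons_val_one]
    rw [hAa, ← hc]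
    have h1 := h.cPA x hx _ (hAm (v 0))
    calc x * (αA (v 0) * αB (v 1)) * x⁻¹ = (x * αA (v 0)) * αB (v 1) * x⁻¹ := by group
      _ = (αA (v 0) * x) * αB (v 1) * x⁻¹ := by rw [h1]
      _ = αA (v 0) * (x * αB (v 1) * x⁻¹ * (αB (v 1))⁻¹) * αB (v 1) := by group
  have actP' : ∀ y ∈ P', ∀ c : F, (∀ t, y * αA t * y⁻¹ * (αA t)⁻¹ = αB (c * t)) →
      ∀ v, y * π v * y⁻¹ = π ![v 0, c * v 0 + v 1] := by
    intro y hy c hc v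
    rw [hπ, hπ]
    simp only [Matrix.cons_val_zero, Matrix.cons_val_one]
    rw [hBa, ← hc]
    have h1 := h.cPB y hy _ (hBm (v 1))
    have h2 := h.commAB _ (hAm (v 0)) _ (h.psi_mem y hy _ (hAm (v 0)))
    calc y * (αA (v 0) * αB (v 1)) * y⁻¹ = y * αA (v 0) * (αB (v 1) * y⁻¹) := by group
      _ = y * αA (v 0) * (y⁻¹ * αB (v 1)) := by rw [← comm_inv_left h1]
      _ = ((y * αA (v 0) * y⁻¹ * (αA (v 0))⁻¹) * αA (v 0)) * αB (v 1) := by group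
      _ = (αA (v 0) * (y * αA (v 0) * y⁻¹ * (αA (v 0))⁻¹)) * αB (v 1) := by rw [h2]
      _ = αA (v 0) * (y * αA (v 0) * y⁻¹ * (αA (v 0))⁻¹ * αB (v 1)) := mul_assoc _ _ _
  refine sl2_quot P P' (A ⊔ B) π hinj hW ?_ ?_ ?_ ?_ hN
  · intro x hx
    obtain ⟨c, hc⟩ := c1 x hx
    exact ⟨c, actP x hx c hc⟩
  · intro c
    obtain ⟨x, hx, hc⟩ := c2 c
    exact ⟨x, hx, actP x hx c hc⟩
  · intro y hy
    obtain ⟨c, hc⟩ := c3 y hy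
    exact ⟨c, actP' y hy c hc⟩
  · intro c
    obtain ⟨y, hy, hc⟩ := c4 c
    exact ⟨y, hy, actP' y hy c hc⟩

end SLData

end Cfsg.Agent.Lib.Helper36
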