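import Cfsg.Agent.Lib.Helper36.TimA
import Cfsg.Agent.Lib.Helper36.SympExp4

set_option autoImplicit false

namespace Cfsg.Agent.Lib.Helper36

open Subgroup

variable {G : Type*} [Group G]

theorem symm_mem_normalizer_of_map {A : Subgroup G} (φ : G ≃* G) {m : G}
    (hm : m ∈ normalizer ((A.map φ.toMonoidHom : Subgroup G) : Set G)) :
    φ.symm m ∈ normalizer (A : Set G) := by
  rw [mem_normalizer_iff] at hm ⊢
  intro k
  have := hm (φ k)
  rw [mem_map_equiv, mem_map_equiv] at this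
  simpa using this

theorem apply_mem_normalizer_map {A : Subgroup G} (φ : G ≃* G) {m : G}
    (hm : m ∈ normalizer (A : Set G)) :
    φ m ∈ normalizer ((A.map φ.toMonoidHom : Subgroup G) : Set G) := by
  rw [mem_normalizer_iff] at hm ⊢
  intro k
  have := hm (φ.symm k)
  rw [mem_map_equiv, mem_map_equiv]
  simpa using this

theorem TG.map {A P : Subgroup G} (h : TG A P) (φ : G ≃* G) :
    TG (A.map φ.toMonoidHom) (P.map φ.toMonoidHom) where
  sqA := by
    intro a ha
    rw [mem_map_equiv] at ha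
    apply φ.symm.injective
    simpa using h.sqA _ ha
  AP := Subgroup.map_mono h.AP
  cA := by
    intro p hp a ha
    rw [mem_map_equiv] at hp ha
    apply φ.symm.injective
    simpa using h.cA _ hp _ ha
  norm := by
    intro m hm p hp
    rw [mem_map_equiv] at hp ⊢
    simpa using h.norm _ (symm_mem_normalizer_of_map φ hm) _ hp
  sq := by
    intro p hp
    rw [mem_map_equiv] at hp ⊢
    simpa using h.sq _ hp
  cen := by
    intro x hx hc
    rw [mem_map_equiv]
    apply h.cen _ (symm_mem_normalizer_of_map φ hx)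
    intro p hp
    have := hc (φ p) (by rw [mem_map_equiv]; simpa using hp)
    have := congrArg φ.symm this
    simpa using this
  stab := by
    intro x hx hc
    rw [mem_map_equiv]
    apply h.stab
    · intro a ha
      have := hx (φ a) (by rw [mem_map_equiv]; simpa using ha)
      have := congrArg φ.symm this
      simpa using this
    · intro p hp
      have := hc (φ p) (by rw [mem_map_equiv]; simpa using hp)
      rw [mem_map_equiv] at this
      simpa using this
  ti := by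
    intro x a ha ha1 hxa
    rw [mem_map_equiv] at ha hxa
    have h1 : φ.symm a ≠ 1 := fun h0 => ha1 (by simpa using h0)
    have := h.ti (φ.symm x) _ ha h1 (by simpa using hxa)
    have := apply_mem_normalizer_map φ this
    simpa using this
  maxab := by
    intro J hAJ hJP hJab hJinv x hx
    rw [mem_map_equiv]
    have : J.comap φ.toMonoidHom ≤ A := by
      apply h.maxab
      · intro a ha
        rw [mem_comap]
        exact hAJ (mem_map_of_mem _ ha)
      · intro j hj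
        rw [mem_comap] at hj
        have := hJP hj
        rw [mem_map_equiv] at this
        simpa using this
      · intro u hu v hv
        rw [mem_comap] at hu hv
        apply φ.injective
        have := hJab _ hu _ hv
        simpa using this
      · intro m hm j hj
        rw [mem_comap] at hj ⊢
        have := hJinv _ (apply_mem_normalizer_map φ hm) _ hj
        simpa using this
    apply this
    rw [mem_comap]
    simpa using hx

/-- the pair formed by `A` and a conjugate -/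
theorem TG.pair [Finite G] {A P : Subgroup G} (h : TG A P) (g : G)
    (hdisj : ∀ x ∈ A, x ∈ A.map (MulAut.conj g).toMonoidHom → x = 1) (hne : ∃ a ∈ A, a ≠ 1) :
    TPair A P (A.map (MulAut.conj g).toMonoidHom) (P.map (MulAut.conj g).toMonoidHom) where
  tA := h
  tB := h.map _
  disj := hdisj
  card := (Subgroup.card_map_of_injective (MulAut.conj g).injective).symm
  neA := hne
  neB := by
    obtain ⟨a, ha, ha1⟩ := hne
    refine ⟨g * a * g⁻¹, conj_mem_map_conj A g a ha, fun h1 => ha1 ?_⟩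
    calc a = g⁻¹ * (g * a * g⁻¹) * g := by group
      _ = 1 := by rw [h1]; group
  tiAB := by
    intro w a ha ha1 hwa
    rw [mem_map_conj] at hwa
    have hn : g⁻¹ * w ∈ normalizer (A : Set G) := by
      apply h.ti _ a ha ha1
      have : g⁻¹ * w * a * (g⁻¹ * w)⁻¹ = g⁻¹ * (w * a * w⁻¹) * g := by group
      rw [this]; exact hwa
    constructor
    · intro a' ha'
      rw [mem_map_conj]
      have := h.conj_mem hn ha'
      have e : g⁻¹ * w * a' * (g⁻¹ * w)⁻¹ = g⁻¹ * (w * a' * w⁻¹) * g := by group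
      rwa [e] at this
    · intro p hp
      rw [mem_map_conj]
      have := h.norm _ hn p hp
      have e : g⁻¹ * w * p * (g⁻¹ * w)⁻¹ = g⁻¹ * (w * p * w⁻¹) * g := by group
      rwa [e] at this
  tiBA := by
    intro w b hb hb1 hwb
    rw [mem_map_conj] at hb
    have hn : w * g ∈ normalizer (A : Set G) := by
      apply h.ti _ _ hb
      · intro h1
        apply hb1
        calc b = g * (g⁻¹ * b * g) * g⁻¹ := by group
          _ = 1 := by rw [h1]; group
      · have : w * g * (g⁻¹ * b * g) * (w * g)⁻¹ = w * b * w⁻¹ := by group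
        rw [this]; exact hwb
    constructor
    · intro b' hb'
      rw [mem_map_conj] at hb'
      have := h.conj_mem hn hb'
      have e : w * g * (g⁻¹ * b' * g) * (w * g)⁻¹ = w * b' * w⁻¹ := by group
      rwa [e] at this
    · intro p hp
      rw [mem_map_conj] at hp
      have := h.norm _ hn _ hp
      have e : w * g * (g⁻¹ * p * g) * (w * g)⁻¹ = w * p * w⁻¹ := by group
      rwa [e] at this

/-- elements centralizing `A` and acting trivially on `P / A` -/
def stabSub (A P : Subgroup G) : Subgroup G where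
  carrier := {h | (∀ a ∈ A, h * a = a * h) ∧ ∀ p ∈ P, h * p * h⁻¹ * p⁻¹ ∈ A}
  one_mem' := ⟨fun a _ => by simp, fun p _ => by simp⟩
  mul_mem' := by
    rintro h h' ⟨h1, h2⟩ ⟨h1', h2'⟩
    refine ⟨fun a ha => ?_, fun p hp => ?_⟩
    · calc h * h' * a = h * (h' * a) := mul_assoc _ _ _
        _ = h * (a * h') := by rw [h1' a ha]
        _ = (h * a) * h' := (mul_assoc _ _ _).symm
        _ = (a * h) * h' := by rw [h1 a ha]
        _ = a * (h * h') := mul_assoc _ _ _
    · have e : (h * h') * p * (h * h')⁻¹ * p⁻¹ =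
          (h * (h' * p * h'⁻¹ * p⁻¹)) * h⁻¹ * (h * p * h⁻¹ * p⁻¹) := by group
      rw [e, h1 _ (h2' p hp), mul_assoc _ h, mul_inv_cancel, mul_one]
      exact A.mul_mem (h2' p hp) (h2 p hp)
  inv_mem' := by
    rintro h ⟨h1, h2⟩
    refine ⟨fun a ha => comm_inv_left (h1 a ha), fun p hp => ?_⟩
    have e : h⁻¹ * p * h⁻¹⁻¹ * p⁻¹ = h⁻¹ * (h * p * h⁻¹ * p⁻¹)⁻¹ * h := by group
    rw [e, comm_inv_left (h1 _ (A.inv_mem (h2 p hp))), mul_assoc, inv_mul_cancel, mul_one]
    exact A.inv_mem (h2 p hp)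

theorem mem_stabSub {A P : Subgroup G} {h : G} :
    h ∈ stabSub A P ↔ (∀ a ∈ A, h * a = a * h) ∧ ∀ p ∈ P, h * p * h⁻¹ * p⁻¹ ∈ A := Iff.rfl

theorem sq_comm_of {h x a : G} (ha : h * x * h⁻¹ * x⁻¹ = a) (hc : h * a = a * h)
    (haa : a * a = 1) : (h * h) * x = x * (h * h) := by
  have h1 : h * x = a * x * h := by rw [← ha]; group
  calc h * h * x = h * (h * x) := mul_assoc _ _ _
    _ = h * (a * x * h) := by rw [h1]
    _ = (h * a) * x * h := by simp only [mul_assoc]
    _ = (a * h) * x * h := by rw [hc]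
    _ = a * (h * x) * h := by simp only [mul_assoc]
    _ = a * (a * x * h) * h := by rw [h1]
    _ = (a * a) * x * (h * h) := by simp only [mul_assoc]
    _ = x * (h * h) := by rw [haa, one_mul]

theorem comm_sq_of {y p a : G} (ha : y * p * y⁻¹ * p⁻¹ = a) (hc : p * a = a * p)
    (haa : a * a = 1) : y * (p * p) = (p * p) * y := by
  have h1 : y * p = a * p * y := by rw [← ha]; group
  calc y * (p * p) = (y * p) * p := (mul_assoc _ _ _).symm
    _ = (a * p * y) * p := by rw [h1]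
    _ = a * p * (y * p) := mul_assoc _ _ _
    _ = a * p * (a * p * y) := by rw [h1]
    _ = a * (p * a) * p * y := by simp only [mul_assoc]
    _ = a * (a * p) * p * y := by rw [hc]
    _ = (a * a) * (p * p) * y := by simp only [mul_assoc]
    _ = (p * p) * y := by rw [haa, one_mul]

theorem le_normalizer_of_conj {X M : Subgroup G} (h : ∀ m ∈ M, ∀ x ∈ X, m * x * m⁻¹ ∈ X) :
    M ≤ normalizer (X : Set G) := by
  intro m hm
  rw [mem_normalizer_iff]
  intro x
  refine ⟨h m hm x, fun hx => ?_⟩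
  have := h m⁻¹ (M.inv_mem hm) _ hx
  have e : m⁻¹ * (m * x * m⁻¹) * m⁻¹⁻¹ = x := by group
  rwa [e] at this

theorem isPGroup_two_of_sq_sq {X : Subgroup G} (h : ∀ x ∈ X, (x * x) * (x * x) = 1) :
    IsPGroup 2 ↥X := by
  intro x
  refine ⟨2, Subtype.ext ?_⟩
  have := h x.1 x.2
  simp only [Subgroup.coe_pow, Subgroup.coe_one]
  calc x.1 ^ 2 ^ 2 = (x.1 * x.1) * (x.1 * x.1) := by
        norm_num [pow_succ, mul_assoc]
    _ = 1 := this

theorem conj_comm_of {m j p : G} (h : j * (m⁻¹ * p * m) = (m⁻¹ * p * m) * j) :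
    (m * j * m⁻¹) * p = p * (m * j * m⁻¹) := by
  calc m * j * m⁻¹ * p = m * (j * (m⁻¹ * p * m)) * m⁻¹ := by group
    _ = m * ((m⁻¹ * p * m) * j) * m⁻¹ := by rw [h]
    _ = p * (m * j * m⁻¹) := by group

/-- The abstract setting holds for `P = C_Q(A)` in the local situation of the theorem. -/
theorem TG.of_local [Finite G] (A M Q : Subgroup G) (hM : M = normalizer (A : Set G))
    (sqA : ∀ a ∈ A, a * a = 1) (commA : ∀ a ∈ A, ∀ b ∈ A, a * b = b * a)
    (hQM : Q ≤ M) (hMQ : M ≤ normalizer (Q : Set G)) (hQp : IsPGroup 2 Q)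
    (hle : ∀ X : Subgroup G, X ≤ M → M ≤ normalizer (X : Set G) → IsPGroup 2 X → X ≤ Q)
    (hCQ : M ⊓ centralizer (Q : Set G) ≤ Q)
    (h2 : ∀ J : Subgroup G, A ≤ J → J ≤ M → (∀ x ∈ J, ∀ y ∈ J, x * y = y * x) →
      (∀ m ∈ M, ∀ j ∈ J, m * j * m⁻¹ ∈ J) → J ≤ A)
    (hti : ∀ x : G, ∀ a ∈ A, a ≠ 1 → x * a * x⁻¹ ∈ A → x ∈ M) :
    TG A (Q ⊓ centralizer (A : Set G)) := by
  obtain ⟨P, hP⟩ : ∃ P : Subgroup G, P = Q ⊓ centralizer (A : Set G) := ⟨_, rfl⟩
  rw [← hP]
  have hPmem : ∀ x, x ∈ P ↔ x ∈ Q ∧ ∀ a ∈ A, x * a = a * x := by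
    intro x
    rw [hP, mem_inf, mem_centralizer_iff]
    exact ⟨fun hx => ⟨hx.1, fun b hb => (hx.2 b hb).symm⟩,
      fun hx => ⟨hx.1, fun b hb => (hx.2 b hb).symm⟩⟩
  have hAM : A ≤ M := by rw [hM]; exact le_normalizer
  have hAQ : A ≤ Q := by
    apply hle A hAM (by rw [hM])
    apply isPGroup_two_of_sq_sq
    intro x hx
    rw [sqA x hx, one_mul]
  have hAP : A ≤ P := fun a ha => (hPmem a).mpr ⟨hAQ ha, fun b hb => commA a ha b hb⟩
  have cA : ∀ p ∈ P, ∀ a ∈ A, p * a = a * p := fun p hp => ((hPmem p).mp hp).2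
  have hconjA : ∀ m ∈ M, ∀ a ∈ A, m * a * m⁻¹ ∈ A := by
    intro m hm a ha
    rw [hM] at hm
    exact (mem_normalizer_iff.mp hm a).mp ha
  have hconjA' : ∀ m ∈ M, ∀ a ∈ A, m⁻¹ * a * m ∈ A := by
    intro m hm a ha
    have := hconjA m⁻¹ (M.inv_mem hm) a ha
    rwa [inv_inv] at this
  have hconjQ : ∀ m ∈ M, ∀ q ∈ Q, m * q * m⁻¹ ∈ Q := by
    intro m hm q hq
    exact (mem_normalizer_iff.mp (hMQ hm) q).mp hq
  have norm : ∀ m ∈ M, ∀ p ∈ P, m * p * m⁻¹ ∈ P := by
    intro m hm p hp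
    rw [hPmem]
    refine ⟨hconjQ m hm p ((hPmem p).mp hp).1, fun a ha => ?_⟩
    exact conj_comm_of (cA p hp _ (hconjA' m hm a ha))
  have norm' : ∀ m ∈ M, ∀ p ∈ P, m⁻¹ * p * m ∈ P := by
    intro m hm a ha
    have := norm m⁻¹ (M.inv_mem hm) a ha
    rwa [inv_inv] at this
  have hPM : P ≤ M := fun p hp => hQM ((hPmem p).mp hp).1
  have hcentM : ∀ x : G, (∀ a ∈ A, x * a = a * x) → x ∈ M := by
    intro x hx
    rw [hM, mem_normalizer_iff]
    intro a
    constructor
    · intro ha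
      rw [hx a ha, mul_assoc, mul_inv_cancel, mul_one]; exact ha
    · intro ha
      have h1 := hx _ ha
      have h3 : x * a * x⁻¹ = a := by
        have : x * (x * a * x⁻¹) = x * a := by
          rw [h1]; group
        exact mul_left_cancel this
      rw [← h3]; exact ha
  -- the centre of `P`
  have hZP : ∀ z ∈ P, (∀ p ∈ P, z * p = p * z) → z ∈ A := by
    intro z hz hzc
    have : P ⊓ centralizer (P : Set G) ≤ A := by
      apply h2
      · intro a ha
        exact mem_inf.mpr ⟨hAP ha, mem_centralizer_iff.mpr (fun p hp => cA p hp a ha)⟩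
      · exact inf_le_left.trans hPM
      · intro x hx y hy
        exact (mem_centralizer_iff.mp (mem_inf.mp hx).2 y (mem_inf.mp hy).1).symm
      · intro m hm j hj
        refine mem_inf.mpr ⟨norm m hm j (mem_inf.mp hj).1, mem_centralizer_iff.mpr fun p hp => ?_⟩
        exact (conj_comm_of
          (mem_centralizer_iff.mp (mem_inf.mp hj).2 _ (norm' m hm p hp)).symm).symm
    exact this (mem_inf.mpr ⟨hz, mem_centralizer_iff.mpr (fun p hp => (hzc p hp).symm)⟩)
  -- the stabilizer subgroup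
  have hTinv : ∀ m ∈ M, ∀ t ∈ stabSub A P, m * t * m⁻¹ ∈ stabSub A P := by
    intro m hm t ht
    obtain ⟨ht1, ht2⟩ := mem_stabSub.mp ht
    refine mem_stabSub.mpr ⟨fun a ha => conj_comm_of (ht1 _ (hconjA' m hm a ha)), fun p hp => ?_⟩
    have e : m * t * m⁻¹ * p * (m * t * m⁻¹)⁻¹ * p⁻¹ =
        m * (t * (m⁻¹ * p * m) * t⁻¹ * (m⁻¹ * p * m)⁻¹) * m⁻¹ := by group
    rw [e]
    exact hconjA m hm _ (ht2 _ (norm' m hm p hp))
  obtain ⟨Y, hY⟩ : ∃ Y : Subgroup G, Y = stabSub A P ⊓ P := ⟨_, rfl⟩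
  have hYmem : ∀ y, y ∈ Y ↔ y ∈ P ∧ ∀ p ∈ P, y * p * y⁻¹ * p⁻¹ ∈ A := by
    intro y
    rw [hY, mem_inf, mem_stabSub]
    exact ⟨fun h => ⟨h.2, h.1.2⟩, fun h => ⟨⟨cA y h.1, h.2⟩, h.1⟩⟩
  have hYinv : ∀ m ∈ M, ∀ y ∈ Y, m * y * m⁻¹ ∈ Y := by
    intro m hm y hy
    rw [hY] at hy ⊢
    exact mem_inf.mpr ⟨hTinv m hm y (mem_inf.mp hy).1, norm m hm y (mem_inf.mp hy).2⟩
  have hYinv' : ∀ m ∈ M, ∀ y ∈ Y, m⁻¹ * y * m ∈ Y := by
    intro m hm a ha
    have := hYinv m⁻¹ (M.inv_mem hm) a ha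
    rwa [inv_inv] at this
  have hYP : Y ≤ P := fun y hy => ((hYmem y).mp hy).1
  have hAY : A ≤ Y := by
    intro a ha
    rw [hYmem]
    refine ⟨hAP ha, fun p hp => ?_⟩
    rw [comm_eq_one_of_comm (cA p hp a ha).symm]
    exact A.one_mem
  have hZY : ∀ z ∈ Y, (∀ y ∈ Y, z * y = y * z) → z ∈ A := by
    intro z hz hzc
    have : Y ⊓ centralizer (Y : Set G) ≤ A := by
      apply h2
      · intro a ha
        exact mem_inf.mpr ⟨hAY ha, mem_centralizer_iff.mpr (fun p hp => cA p (hYP hp) a ha)⟩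
      · exact inf_le_left.trans (hYP.trans hPM)
      · intro x hx y hy
        exact (mem_centralizer_iff.mp (mem_inf.mp hx).2 y (mem_inf.mp hy).1).symm
      · intro m hm j hj
        refine mem_inf.mpr ⟨hYinv m hm j (mem_inf.mp hj).1, mem_centralizer_iff.mpr fun p hp => ?_⟩
        exact (conj_comm_of
          (mem_centralizer_iff.mp (mem_inf.mp hj).2 _ (hYinv' m hm p hp)).symm).symm
    exact this (mem_inf.mpr ⟨hz, mem_centralizer_iff.mpr (fun p hp => (hzc p hp).symm)⟩)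
  have hPp : IsPGroup 2 ↥P := hQp.to_le (by rw [hP]; exact inf_le_left)
  haveI : Fact (Nat.Prime 2) := ⟨Nat.prime_two⟩
  have hC : ∀ c ∈ P, (∀ y ∈ Y, c * y = y * c) → c ∈ A := by
    intro c hc hcY
    by_contra hcA
    haveI : Group.IsNilpotent ↥P := hPp.isNilpotent
    let N : Subgroup ↥P := (P ⊓ centralizer (Y : Set G)).subgroupOf P
    have hNmem : ∀ x : ↥P, x ∈ N ↔ ∀ y ∈ Y, x.1 * y = y * x.1 := by
      intro x
      change x.1 ∈ P ⊓ centralizer (Y : Set G) ↔ _
      rw [mem_inf, mem_centralizer_iff]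
      exact ⟨fun h y hy => (h.2 y hy).symm, fun h => ⟨x.2, fun y hy => (h y hy).symm⟩⟩
    haveI : N.Normal := ⟨by
      intro n hn g
      rw [hNmem] at hn ⊢
      intro y hy
      exact conj_comm_of (hn _ (hYinv' g.1 (hPM g.2) y hy))⟩
    have hnle : ¬ N ≤ A.subgroupOf P := by
      intro hle'
      apply hcA
      have : (⟨c, hc⟩ : ↥P) ∈ A.subgroupOf P := hle' ((hNmem _).mpr hcY)
      exact this
    obtain ⟨y, hyN, hyA, hyc⟩ := exists_central_mod N (A.subgroupOf P) hnle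
    apply hyA
    change y.1 ∈ A
    apply hZY y.1 _ ((hNmem y).mp hyN)
    rw [hYmem]
    exact ⟨y.2, fun p hp => hyc ⟨p, hp⟩⟩
  have sq : ∀ p ∈ P, p * p ∈ A := by
    intro p hp
    apply hC _ (P.mul_mem hp hp)
    intro y hy
    have ha := ((hYmem y).mp hy).2 p hp
    exact (comm_sq_of rfl (cA p hp _ ha) (sqA _ ha)).symm
  -- the centralizer of `P` in `M`
  have hDinv : ∀ m ∈ M, ∀ d ∈ M ⊓ centralizer (P : Set G), m * d * m⁻¹ ∈ M ⊓ centralizer (P : Set G) := by
    intro m hm d hd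
    refine mem_inf.mpr ⟨M.mul_mem (M.mul_mem hm (mem_inf.mp hd).1) (M.inv_mem hm),
      mem_centralizer_iff.mpr fun p hp => ?_⟩
    exact (conj_comm_of (mem_centralizer_iff.mp (mem_inf.mp hd).2 _ (norm' m hm p hp)).symm).symm
  have hDQ : ∀ z ∈ M ⊓ centralizer (P : Set G), z ∈ Q → z ∈ A := by
    intro z hz hzQ
    have hzc : ∀ p ∈ P, z * p = p * z := fun p hp =>
      (mem_centralizer_iff.mp (mem_inf.mp hz).2 p hp).symm
    exact hZP z ((hPmem z).mpr ⟨hzQ, fun a ha => hzc a (hAP ha)⟩) hzc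
  have hDsq : ∀ d ∈ M ⊓ centralizer (P : Set G), d * d ∈ A := by
    intro d hd
    have hdM := (mem_inf.mp hd).1
    have hdc : ∀ p ∈ P, d * p = p * d := fun p hp =>
      (mem_centralizer_iff.mp (mem_inf.mp hd).2 p hp).symm
    apply hDQ _ (mul_mem hd hd)
    apply hCQ
    refine mem_inf.mpr ⟨M.mul_mem hdM hdM, mem_centralizer_iff.mpr fun q hq => ?_⟩
    have ha : d * q * d⁻¹ * q⁻¹ ∈ A := by
      apply hDQ
      · have e : d * q * d⁻¹ * q⁻¹ = d * (q * d⁻¹ * q⁻¹) := by group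
        rw [e]
        exact mul_mem hd (hDinv q (hQM hq) _ (inv_mem hd))
      · exact Q.mul_mem (hconjQ d hdM q hq) (Q.inv_mem hq)
    exact (sq_comm_of rfl (hdc _ (hAP ha)) (sqA _ ha)).symm
  have cen : ∀ x ∈ M, (∀ p ∈ P, x * p = p * x) → x ∈ A := by
    intro x hx hxc
    have hxD : x ∈ M ⊓ centralizer (P : Set G) :=
      mem_inf.mpr ⟨hx, mem_centralizer_iff.mpr fun p hp => (hxc p hp).symm⟩
    apply hDQ x hxD
    exact hle _ inf_le_left (le_normalizer_of_conj hDinv)
      (isPGroup_two_of_sq_sq fun d hd => sqA _ (hDsq d hd)) hxD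
  have stab : ∀ h : G, (∀ a ∈ A, h * a = a * h) → (∀ p ∈ P, h * p * h⁻¹ * p⁻¹ ∈ A) → h ∈ P := by
    intro t ht1 ht2
    have hTM : stabSub A P ≤ M := fun t ht => hcentM t (mem_stabSub.mp ht).1
    have hTsq : ∀ t ∈ stabSub A P, t * t ∈ A := by
      intro t ht
      obtain ⟨ht1, ht2⟩ := mem_stabSub.mp ht
      apply cen _ (M.mul_mem (hTM ht) (hTM ht))
      intro p hp
      exact sq_comm_of rfl (ht1 _ (ht2 p hp)) (sqA _ (ht2 p hp))
    have hTQ : stabSub A P ≤ Q :=
      hle _ hTM (le_normalizer_of_conj hTinv) (isPGroup_two_of_sq_sq fun d hd => sqA _ (hTsq d hd))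
    exact (hPmem t).mpr ⟨hTQ (mem_stabSub.mpr ⟨ht1, ht2⟩), ht1⟩
  exact
    { sqA := sqA
      AP := hAP
      cA := cA
      norm := fun m hm => norm m (hM ▸ hm)
      sq := sq
      cen := fun x hx => cen x (hM ▸ hx)
      stab := stab
      ti := fun x a ha ha1 hxa => hM ▸ hti x a ha ha1 hxa
      maxab := fun J hAJ hJP hJab hJinv =>
        h2 J hAJ (hJP.trans hPM) hJab (fun m hm => hJinv m (hM ▸ hm)) }

end Cfsg.Agent.Lib.Helper36
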